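/-
Calculus of tensor-product matrices on `F^(Fin t → Fin k)`: `mm As τ` has `(x, y)` entry `∏ i, As i (x i) (y (τ i))`.
-/
import Cfsg.Agent.Lib.Geo.Basic
set_option autoImplicit false

namespace Cfsg.Agent.Lib.Ten.Mm

open Cfsg Cfsg.Geo Cfsg.Agent.Lib.Geo.Basic
open scoped MatrixGroups Matrix

variable {F : Type*} [Field F] {t k : ℕ}

/-- The index set of a tensor power. -/
abbrev Ix (t k : ℕ) : Type := Fin t → Fin k

/-- Tensor-product matrices, twisted by a permutation of the factors. -/
def mm (As : Fin t → Matrix (Fin k) (Fin k) F) (τ : Equiv.Perm (Fin t)) : Matrix (Ix t k) (Ix t k) F :=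
  fun x y => ∏ i, As i (x i) (y (τ i))

theorem mm_apply (As : Fin t → Matrix (Fin k) (Fin k) F) (τ : Equiv.Perm (Fin t)) (x y : Ix t k) :
    mm As τ x y = ∏ i, As i (x i) (y (τ i)) := rfl

/-- Composition with a permutation of the factors as a bijection of the index set. -/
def compE (τ : Equiv.Perm (Fin t)) : Ix t k ≃ Ix t k where
  toFun z := z ∘ τ
  invFun z := z ∘ τ.symm
  left_inv z := by
    ext i
    simp
  right_inv z := by
    ext i
    simp

theorem sum_prod_comp (τ : Equiv.Perm (Fin t)) (f : Fin t → Fin k → F) :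
    ∑ z : Ix t k, ∏ i, f i (z (τ i)) = ∏ i, ∑ r, f i r := by
  rw [Finset.prod_univ_sum, Fintype.piFinset_univ]
  exact (compE τ).sum_comp (fun w : Ix t k => ∏ i, f i (w i))

theorem mm_mul (As Bs : Fin t → Matrix (Fin k) (Fin k) F) (τ τ' : Equiv.Perm (Fin t)) :
    mm As τ * mm Bs τ' = mm (fun i => As i * Bs (τ i)) (τ.trans τ') := by
  ext x y
  rw [Matrix.mul_apply, mm_apply]
  have h1 : ∀ z : Ix t k, mm As τ x z * mm Bs τ' z y =
      ∏ i, (As i (x i) (z (τ i)) * Bs (τ i) (z (τ i)) (y (τ' (τ i)))) := by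
    intro z
    rw [mm_apply, mm_apply, Finset.prod_mul_distrib]
    congr 1
    exact (Equiv.prod_comp τ (fun j => Bs j (z j) (y (τ' j)))).symm
  simp_rw [h1]
  rw [sum_prod_comp τ (fun i r => As i (x i) r * Bs (τ i) r (y (τ' (τ i))))]
  refine Finset.prod_congr rfl fun i _ => ?_
  rw [Matrix.mul_apply]
  rfl

theorem mm_one : mm (fun _ => (1 : Matrix (Fin k) (Fin k) F)) (1 : Equiv.Perm (Fin t)) = 1 := by
  ext x y
  rw [mm_apply, Matrix.one_apply]
  by_cases h : x = y
  · subst h
    rw [if_pos rfl]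
    refine Finset.prod_eq_one fun i _ => ?_
    change (1 : Matrix (Fin k) (Fin k) F) (x i) (x i) = 1
    simp
  · rw [if_neg h]
    obtain ⟨i, hi⟩ := Function.ne_iff.mp h
    exact Finset.prod_eq_zero (Finset.mem_univ i) (by simp [Matrix.one_apply, hi, Equiv.Perm.one_apply])

/-- The invertible tensor-product matrix. -/
def tw (gs : Fin t → GL (Fin k) F) (τ : Equiv.Perm (Fin t)) : GL (Ix t k) F where
  val := mm (fun i => (gs i : Matrix (Fin k) (Fin k) F)) τ
  inv := mm (fun i => ((gs (τ.symm i))⁻¹ : GL (Fin k) F)) τ.symm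
  val_inv := by
    rw [mm_mul]
    have h1 : (fun i => (gs i : Matrix (Fin k) (Fin k) F) * (((gs (τ.symm (τ i)))⁻¹ : GL (Fin k) F) : Matrix (Fin k) (Fin k) F)) =
        fun _ => 1 := by
      ext1 i
      rw [Equiv.symm_apply_apply, ← Units.val_mul, mul_inv_cancel, Units.val_one]
    rw [h1, Equiv.self_trans_symm]
    exact mm_one
  inv_val := by
    rw [mm_mul]
    have h1 : (fun i => (((gs (τ.symm i))⁻¹ : GL (Fin k) F) : Matrix (Fin k) (Fin k) F) * (gs (τ.symm i) : Matrix (Fin k) (Fin k) F)) =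
        fun _ => 1 := by
      ext1 i
      rw [← Units.val_mul, inv_mul_cancel, Units.val_one]
    rw [h1, Equiv.symm_trans_self]
    exact mm_one

theorem coe_tw (gs : Fin t → GL (Fin k) F) (τ : Equiv.Perm (Fin t)) :
    ((tw gs τ : GL (Ix t k) F) : Matrix (Ix t k) (Ix t k) F) = mm (fun i => (gs i : Matrix (Fin k) (Fin k) F)) τ := rfl

theorem coe_tw_inv (gs : Fin t → GL (Fin k) F) (τ : Equiv.Perm (Fin t)) :
    (((tw gs τ)⁻¹ : GL (Ix t k) F) : Matrix (Ix t k) (Ix t k) F) =
      mm (fun i => (((gs (τ.symm i))⁻¹ : GL (Fin k) F) : Matrix (Fin k) (Fin k) F)) τ.symm := rfl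

theorem tw_mul (gs gs' : Fin t → GL (Fin k) F) (τ τ' : Equiv.Perm (Fin t)) :
    tw gs τ * tw gs' τ' = tw (fun i => gs i * gs' (τ i)) (τ.trans τ') := by
  ext1
  rw [Units.val_mul, coe_tw, coe_tw, mm_mul, coe_tw]
  simp only [Units.val_mul]

/-- The normal form of elements of the tensor-wreath group. -/
theorem exists_tw_of_mem {g : GL (Ix t k) F} (hg : g ∈ tensorWreathStandard k t F) :
    ∃ gs τ, g = tw gs τ := by
  unfold tensorWreathStandard at hg
  induction hg using Subgroup.closure_induction with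
  | mem x hx =>
    rcases hx with ⟨gs, hgs⟩ | ⟨σ, hσ⟩
    · refine ⟨gs, 1, ?_⟩
      ext1
      ext x y
      rw [hgs, coe_tw, mm_apply]
      rfl
    · refine ⟨fun _ => 1, σ.symm, ?_⟩
      ext1
      ext x y
      rw [hσ, coe_tw, mm_apply]
      by_cases h : y = x ∘ σ
      · rw [if_pos h, h]
        refine (Finset.prod_eq_one fun i _ => ?_).symm
        simp
      · rw [if_neg h]
        have : ∃ i, x i ≠ y (σ.symm i) := by
          by_contra hcon
          push Not at hcon
          apply h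
          ext i
          have := hcon (σ i)
          simp only [Equiv.symm_apply_apply] at this
          simp [this]
        obtain ⟨i, hi⟩ := this
        refine (Finset.prod_eq_zero (Finset.mem_univ i) ?_).symm
        simp [hi]
  | one =>
    refine ⟨fun _ => 1, 1, ?_⟩
    ext1
    rw [coe_tw]
    simpa using mm_one.symm
  | mul x y _ _ hx hy =>
    obtain ⟨gs, τ, rfl⟩ := hx
    obtain ⟨gs', τ', rfl⟩ := hy
    exact ⟨_, _, tw_mul gs gs' τ τ'⟩
  | inv x _ hx =>
    obtain ⟨gs, τ, rfl⟩ := hx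
    refine ⟨fun i => (gs (τ.symm i))⁻¹, τ.symm, ?_⟩
    ext1
    rw [coe_tw_inv, coe_tw]

/-- Tensor-product matrices without a factor permutation belong to the tensor-wreath group. -/
theorem tw_one_mem (gs : Fin t → GL (Fin k) F) : tw gs 1 ∈ tensorWreathStandard k t F := by
  refine Subgroup.subset_closure (Or.inl ⟨gs, fun x y => ?_⟩)
  rw [coe_tw, mm_apply]
  rfl

/-! ### Pure tensors -/

/-- The pure tensor of a family of vectors. -/
def ten (us : Fin t → Fin k → F) : Ix t k → F := fun a => ∏ i, us i (a i)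

theorem ten_apply (us : Fin t → Fin k → F) (a : Ix t k) : ten us a = ∏ i, us i (a i) := rfl

theorem mm_mulVec_ten (As : Fin t → Matrix (Fin k) (Fin k) F) (τ : Equiv.Perm (Fin t)) (us : Fin t → Fin k → F) :
    mm As τ *ᵥ ten us = ten (fun i => As i *ᵥ us (τ i)) := by
  ext x
  change ∑ y, mm As τ x y * ten us y = _
  have h1 : ∀ y : Ix t k, mm As τ x y * ten us y = ∏ i, (As i (x i) (y (τ i)) * us (τ i) (y (τ i))) := by
    intro y
    rw [mm_apply, ten_apply, Finset.prod_mul_distrib]
    congr 1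
    exact (Equiv.prod_comp τ (fun j => us j (y j))).symm
  simp_rw [h1]
  rw [sum_prod_comp τ (fun i r => As i (x i) r * us (τ i) r)]
  rfl

theorem ten_single (a : Ix t k) : ten (fun i => (Pi.single (a i) 1 : Fin k → F)) = Pi.single a 1 := by
  ext x
  rw [ten_apply, Pi.single_apply]
  by_cases h : x = a
  · subst h
    simp
  · rw [if_neg h]
    obtain ⟨i, hi⟩ := Function.ne_iff.mp h
    exact Finset.prod_eq_zero (Finset.mem_univ i) (by simp [hi])

/-- The matrix acting as `x` on the factor `i`. -/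
def io (i : Fin t) (x : Matrix (Fin k) (Fin k) F) : Matrix (Ix t k) (Ix t k) F :=
  mm (Function.update (fun _ => (1 : Matrix (Fin k) (Fin k) F)) i x) 1

theorem io_apply (i : Fin t) (x : Matrix (Fin k) (Fin k) F) (a b : Ix t k) :
    io i x a b = x (a i) (b i) * ∏ j ∈ Finset.univ.erase i, (1 : Matrix (Fin k) (Fin k) F) (a j) (b j) := by
  rw [io, mm_apply, ← Finset.mul_prod_erase _ _ (Finset.mem_univ i)]
  simp only [Function.update_self, Equiv.Perm.coe_one, id]
  congr 1
  refine Finset.prod_congr rfl fun j hj => ?_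
  rw [Function.update_of_ne (Finset.ne_of_mem_erase hj)]

theorem io_one (i : Fin t) : io i (1 : Matrix (Fin k) (Fin k) F) = 1 := by
  rw [io, Function.update_eq_self_iff.mpr rfl]
  exact mm_one

theorem io_add (i : Fin t) (x y : Matrix (Fin k) (Fin k) F) : io i (x + y) = io i x + io i y := by
  ext a b
  simp only [Matrix.add_apply, io_apply]
  ring

theorem io_smul (i : Fin t) (c : F) (x : Matrix (Fin k) (Fin k) F) : io i (c • x) = c • io i x := by
  ext a b
  simp only [Matrix.smul_apply, io_apply, smul_eq_mul]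
  ring

theorem io_zero (i : Fin t) : io i (0 : Matrix (Fin k) (Fin k) F) = 0 := by
  have := io_smul i (0 : F) (0 : Matrix (Fin k) (Fin k) F)
  simpa using this

theorem io_mul_same (i : Fin t) (x y : Matrix (Fin k) (Fin k) F) : io i x * io i y = io i (x * y) := by
  rw [io, io, mm_mul, io]
  congr 1
  ext j : 1
  by_cases h : j = i
  · subst h
    simp
  · simp [Function.update_of_ne h]

theorem io_comm {i j : Fin t} (hij : i ≠ j) (x y : Matrix (Fin k) (Fin k) F) : io i x * io j y = io j y * io i x := by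
  rw [io, io, mm_mul, mm_mul]
  congr 1
  ext l : 1
  simp only [Equiv.Perm.coe_one, id]
  by_cases h : l = i
  · subst h
    simp [Function.update_of_ne hij]
  · by_cases h' : l = j
    · subst h'
      simp [Function.update_of_ne h]
    · simp [Function.update_of_ne h, Function.update_of_ne h']

/-- Conjugation of `io` by a tensor-product matrix. -/
theorem tw_conj_io (gs : Fin t → GL (Fin k) F) (τ : Equiv.Perm (Fin t)) (i : Fin t) (x : Matrix (Fin k) (Fin k) F) :
    ((tw gs τ : GL (Ix t k) F) : Matrix (Ix t k) (Ix t k) F) * io i x *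
        (((tw gs τ)⁻¹ : GL (Ix t k) F) : Matrix (Ix t k) (Ix t k) F) =
      io (τ.symm i) ((gs (τ.symm i) : Matrix (Fin k) (Fin k) F) * x * (((gs (τ.symm i))⁻¹ : GL (Fin k) F) : Matrix (Fin k) (Fin k) F)) := by
  have h1 : ((tw gs τ : GL (Ix t k) F) : Matrix (Ix t k) (Ix t k) F) * io i x =
      io (τ.symm i) ((gs (τ.symm i) : Matrix (Fin k) (Fin k) F) * x * (((gs (τ.symm i))⁻¹ : GL (Fin k) F) : Matrix (Fin k) (Fin k) F)) *
        ((tw gs τ : GL (Ix t k) F) : Matrix (Ix t k) (Ix t k) F) := by
    rw [coe_tw, io, io, mm_mul, mm_mul]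
    congr 1
    · ext l : 1
      simp only [Equiv.Perm.coe_one, id]
      by_cases h : l = τ.symm i
      · subst h
        simp only [Equiv.apply_symm_apply, Function.update_self]
        rw [Matrix.mul_assoc, ← Units.val_mul, inv_mul_cancel, Units.val_one, Matrix.mul_one]
      · have h' : τ l ≠ i := by
          rintro rfl
          simp at h
        simp [Function.update_of_ne h, Function.update_of_ne h']
  rw [h1, Matrix.mul_assoc, ← Units.val_mul, mul_inv_cancel, Units.val_one, Matrix.mul_one]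

end Cfsg.Agent.Lib.Ten.Mm
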