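/-
The tensor power of a standard symplectic form in characteristic two, and the subspace `L = Σ_i (B)_i` of the matrix
algebra attached to a suitable subspace `B` of matrices on one factor.
-/
import Cfsg.Agent.Lib.Ten.Mm
import Cfsg.Agent.Lib.SLC2.Mono
set_option autoImplicit false

namespace Cfsg.Agent.Lib.Ten.Form

open Cfsg Cfsg.Geo Cfsg.Agent.Lib.Geo.Basic Cfsg.Agent.Lib.Ten.Mm Cfsg.Agent.Lib.SLC2.Mono
open scoped MatrixGroups Matrix

variable {F : Type*} [Field F] {t k : ℕ} (bar : Equiv.Perm (Fin k))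

/-- The bar map on indices. -/
def bb (a : Ix t k) : Ix t k := fun i => bar (a i)

/-- The form on a single factor. -/
def stdf (u v : Fin k → F) : F := ∑ i, u i * v (bar i)

/-- The tensor power of the form. -/
def beta (x y : Ix t k → F) : F := ∑ a, x a * y (bb bar a)

theorem beta_ten (us vs : Fin t → Fin k → F) :
    beta bar (ten us) (ten vs) = ∏ i, stdf bar (us i) (vs i) := by
  unfold stdf
  rw [Finset.prod_univ_sum, Fintype.piFinset_univ]
  refine Finset.sum_congr rfl fun a _ => ?_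
  rw [ten_apply, ten_apply, Finset.prod_mul_distrib]
  rfl

theorem stdf_add_left (u u' v : Fin k → F) : stdf bar (u + u') v = stdf bar u v + stdf bar u' v := by
  simp [stdf, add_mul, Finset.sum_add_distrib]

theorem stdf_single_single (p r : Fin k) :
    stdf bar (Pi.single p 1 : Fin k → F) (Pi.single r 1) = if r = bar p then 1 else 0 := by
  rw [stdf, Finset.sum_eq_single p]
  · simp [Pi.single_apply, eq_comm]
  · intro b _ hb
    simp [Pi.single_apply, hb]
  · simp

theorem beta_add_left (x x' y : Ix t k → F) : beta bar (x + x') y = beta bar x y + beta bar x' y := by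
  simp [beta, add_mul, Finset.sum_add_distrib]

theorem beta_add_right (x y y' : Ix t k → F) : beta bar x (y + y') = beta bar x y + beta bar x y' := by
  simp [beta, mul_add, Finset.sum_add_distrib]

theorem beta_smul_left (c : F) (x y : Ix t k → F) : beta bar (c • x) y = c * beta bar x y := by
  simp [beta, Finset.mul_sum, mul_assoc]

theorem beta_smul_right (c : F) (x y : Ix t k → F) : beta bar x (c • y) = c * beta bar x y := by
  simp only [beta, Pi.smul_apply, smul_eq_mul, Finset.mul_sum]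
  refine Finset.sum_congr rfl fun a _ => by ring

theorem beta_mul_expand (M : Matrix (Ix t k) (Ix t k) F) (x z : Ix t k → F) :
    beta bar (M *ᵥ x) (M *ᵥ z) =
      ∑ a, ∑ b, x a * z b * beta bar (M *ᵥ Pi.single a 1) (M *ᵥ Pi.single b 1) := by
  simp only [beta, Matrix.mulVec_single_one, Matrix.col_apply]
  have h1 : ∀ c : Ix t k, (M *ᵥ x) c * (M *ᵥ z) (bb bar c) =
      ∑ a, ∑ b, x a * z b * (M c a * M (bb bar c) b) := by
    intro c
    change (∑ a, M c a * x a) * (∑ b, M (bb bar c) b * z b) = _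
    rw [Finset.sum_mul_sum]
    refine Finset.sum_congr rfl fun a _ => Finset.sum_congr rfl fun b _ => by ring
  simp_rw [h1]
  rw [Finset.sum_comm]
  refine Finset.sum_congr rfl fun a _ => ?_
  rw [Finset.sum_comm]
  refine Finset.sum_congr rfl fun b _ => ?_
  rw [Finset.mul_sum]

/-- A matrix preserving the form on the basis preserves it. -/
theorem beta_eq_of_basis (M : Matrix (Ix t k) (Ix t k) F)
    (h : ∀ a b : Ix t k, beta bar (M *ᵥ Pi.single a 1) (M *ᵥ Pi.single b 1) =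
      beta bar (Pi.single a 1 : Ix t k → F) (Pi.single b 1)) (x z : Ix t k → F) :
    beta bar (M *ᵥ x) (M *ᵥ z) = beta bar x z := by
  rw [beta_mul_expand]
  have h1 := beta_mul_expand bar (1 : Matrix (Ix t k) (Ix t k) F) x z
  simp only [Matrix.one_mulVec] at h1
  rw [h1]
  refine Finset.sum_congr rfl fun a _ => Finset.sum_congr rfl fun b _ => ?_
  rw [h]

/-! ### The quadratic form -/

/-- The data of the quadratic form on the tensor power. -/
structure TQ (Q₀ : (Ix t k → F) → F) (c₀ : F) : Prop where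
  smul : ∀ (c : F) v, Q₀ (c • v) = c ^ 2 * Q₀ v
  pol : ∀ x y, Q₀ (x + y) - Q₀ x - Q₀ y = c₀ * beta bar x y
  c₀_ne : c₀ ≠ 0
  pure : ∀ us, Q₀ (ten us) = 0

variable {bar} {Q₀ : (Ix t k → F) → F} {c₀ : F}

theorem TQ.add (h : TQ bar Q₀ c₀) (x y : Ix t k → F) : Q₀ (x + y) = Q₀ x + Q₀ y + c₀ * beta bar x y := by
  have := h.pol x y
  linear_combination this

theorem TQ.single (h : TQ bar Q₀ c₀) (a : Ix t k) : Q₀ (Pi.single a 1) = 0 := by
  rw [← ten_single]
  exact h.pure _

/-- Criterion for isometries. -/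
theorem TQ.mem_iso (h : TQ bar Q₀ c₀) (g : GL (Ix t k) F)
    (hp : ∀ x y, beta bar ((g : Matrix (Ix t k) (Ix t k) F) *ᵥ x) ((g : Matrix (Ix t k) (Ix t k) F) *ᵥ y) = beta bar x y)
    (hq : ∀ a, Q₀ ((g : Matrix (Ix t k) (Ix t k) F) *ᵥ Pi.single a 1) = 0) : g ∈ isometryGroup F Q₀ := by
  classical
  rw [mem_isometryGroup_iff]
  intro v
  have key : ∀ S : Finset (Ix t k), Q₀ ((g : Matrix (Ix t k) (Ix t k) F) *ᵥ (∑ a ∈ S, v a • Pi.single a 1)) =
      Q₀ (∑ a ∈ S, v a • Pi.single a 1) := by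
    intro S
    induction S using Finset.induction_on with
    | empty =>
      simp
    | insert a S ha ih =>
      rw [Finset.sum_insert ha, Matrix.mulVec_add, h.add, h.add, hp, ih, Matrix.mulVec_smul, h.smul, h.smul, hq, h.single]
  have hv : v = ∑ a, v a • (Pi.single a 1 : Ix t k → F) := by
    ext x
    simp [Finset.sum_apply, Pi.single_apply]
  rw [hv]
  exact key Finset.univ

/-- Isometries preserve the form. -/
theorem TQ.beta_of_iso (h : TQ bar Q₀ c₀) (g : GL (Ix t k) F) (hg : g ∈ isometryGroup F Q₀) (x y : Ix t k → F) :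
    beta bar ((g : Matrix (Ix t k) (Ix t k) F) *ᵥ x) ((g : Matrix (Ix t k) (Ix t k) F) *ᵥ y) = beta bar x y := by
  have hI := (mem_isometryGroup_iff Q₀ g).mp hg
  have h1 := h.pol ((g : Matrix (Ix t k) (Ix t k) F) *ᵥ x) ((g : Matrix (Ix t k) (Ix t k) F) *ᵥ y)
  have h2 := h.pol x y
  rw [← Matrix.mulVec_add, hI, hI, hI] at h1
  apply mul_left_cancel₀ h.c₀_ne
  rw [← h1, h2]

/-! ### Similarities on one factor -/

variable (bar) in
/-- `g` is a similarity of the form on one factor. -/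
def IsSim (g : GL (Fin k) F) : Prop :=
  ∃ c : F, c ≠ 0 ∧ ∀ u v : Fin k → F, stdf bar ((g : Matrix (Fin k) (Fin k) F) *ᵥ u) ((g : Matrix (Fin k) (Fin k) F) *ᵥ v) =
    c * stdf bar u v

theorem IsSim.inv {g : GL (Fin k) F} (hg : IsSim bar g) : IsSim bar g⁻¹ := by
  obtain ⟨c, hc, h⟩ := hg
  refine ⟨c⁻¹, inv_ne_zero hc, fun u v => ?_⟩
  have h1 := h (((g⁻¹ : GL (Fin k) F) : Matrix (Fin k) (Fin k) F) *ᵥ u) (((g⁻¹ : GL (Fin k) F) : Matrix (Fin k) (Fin k) F) *ᵥ v)
  rw [mulVec_inv_mulVec, mulVec_inv_mulVec] at h1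
  rw [h1, inv_mul_cancel_left₀ hc]

/-- Each factor of a tensor-product isometry is a similarity. -/
theorem TQ.isSim (h : TQ bar Q₀ c₀) (r₀ : Fin k) (gs : Fin t → GL (Fin k) F) (τ : Equiv.Perm (Fin t))
    (hg : tw gs τ ∈ isometryGroup F Q₀) (i : Fin t) : IsSim bar (gs i) := by
  classical
  set ε : Fin k → F := Pi.single r₀ 1 with hε
  set ε' : Fin k → F := Pi.single (bar r₀) 1 with hε'
  have hee : stdf bar ε ε' = 1 := by
    rw [hε, hε', stdf_single_single, if_pos rfl]
  set κ : F := ∏ j ∈ Finset.univ.erase i, stdf bar ((gs j : Matrix (Fin k) (Fin k) F) *ᵥ ε)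
    ((gs j : Matrix (Fin k) (Fin k) F) *ᵥ ε') with hκ
  have key : ∀ u v : Fin k → F, stdf bar ((gs i : Matrix (Fin k) (Fin k) F) *ᵥ u) ((gs i : Matrix (Fin k) (Fin k) F) *ᵥ v) * κ =
      stdf bar u v := by
    intro u v
    have h1 := h.beta_of_iso _ hg (ten (Function.update (fun _ => ε) (τ i) u)) (ten (Function.update (fun _ => ε') (τ i) v))
    rw [coe_tw, mm_mulVec_ten, mm_mulVec_ten, beta_ten, beta_ten,
      ← Equiv.prod_comp τ (fun j => stdf bar (Function.update (fun _ => ε) (τ i) u j) (Function.update (fun _ => ε') (τ i) v j)),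
      ← Finset.mul_prod_erase _ _ (Finset.mem_univ i), ← Finset.mul_prod_erase Finset.univ
        (fun j => stdf bar (Function.update (fun _ => ε) (τ i) u (τ j)) (Function.update (fun _ => ε') (τ i) v (τ j)))
        (Finset.mem_univ i)] at h1
    simp only [Function.update_self] at h1
    have h2 : ∏ j ∈ Finset.univ.erase i, stdf bar (Function.update (fun _ => ε) (τ i) u (τ j))
        (Function.update (fun _ => ε') (τ i) v (τ j)) = 1 := by
      refine Finset.prod_eq_one fun j hj => ?_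
      have : τ j ≠ τ i := fun h3 => (Finset.ne_of_mem_erase hj) (τ.injective h3)
      rw [Function.update_of_ne this, Function.update_of_ne this, hee]
    have h3 : ∏ j ∈ Finset.univ.erase i, stdf bar ((gs j : Matrix (Fin k) (Fin k) F) *ᵥ Function.update (fun _ => ε) (τ i) u (τ j))
        ((gs j : Matrix (Fin k) (Fin k) F) *ᵥ Function.update (fun _ => ε') (τ i) v (τ j)) = κ := by
      refine Finset.prod_congr rfl fun j hj => ?_
      have : τ j ≠ τ i := fun h3 => (Finset.ne_of_mem_erase hj) (τ.injective h3)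
      rw [Function.update_of_ne this, Function.update_of_ne this]
    rw [h2, h3, mul_one] at h1
    exact h1
  have hκ0 : κ ≠ 0 := by
    intro h0
    have := key ε ε'
    rw [h0, mul_zero, hee] at this
    exact zero_ne_one this
  refine ⟨κ⁻¹, inv_ne_zero hκ0, fun u v => ?_⟩
  rw [← key u v, mul_comm _ κ, inv_mul_cancel_left₀ hκ0]

/-! ### The subspace `L` -/

/-- The span of the factor subspaces. -/
def LL (B : Submodule F (Matrix (Fin k) (Fin k) F)) : Submodule F (Matrix (Ix t k) (Ix t k) F) :=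
  Submodule.span F {z | ∃ i, ∃ x ∈ B, z = io i x}

theorem io_mem_LL {B : Submodule F (Matrix (Fin k) (Fin k) F)} (i : Fin t) {x : Matrix (Fin k) (Fin k) F} (hx : x ∈ B) :
    io i x ∈ LL B := Submodule.subset_span ⟨i, x, hx, rfl⟩

/-- The stabiliser of `L`. -/
def NN (B : Submodule F (Matrix (Fin k) (Fin k) F)) : Subgroup (GL (Ix t k) F) where
  carrier := {g | ∀ z, z ∈ LL (t := t) B ↔
    (g : Matrix (Ix t k) (Ix t k) F) * z * ((g⁻¹ : GL (Ix t k) F) : Matrix (Ix t k) (Ix t k) F) ∈ LL (t := t) B}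
  mul_mem' {a b} ha hb := by
    intro z
    rw [hb z, ha]
    simp only [mul_inv_rev, Units.val_mul, Matrix.mul_assoc]
  one_mem' := by
    intro z
    simp
  inv_mem' {a} ha := by
    intro z
    rw [ha (((a⁻¹ : GL (Ix t k) F) : Matrix (Ix t k) (Ix t k) F) * z * ((a⁻¹⁻¹ : GL (Ix t k) F) : Matrix (Ix t k) (Ix t k) F))]
    simp only [inv_inv]
    rw [show (a : Matrix (Ix t k) (Ix t k) F) * (((a⁻¹ : GL (Ix t k) F) : Matrix (Ix t k) (Ix t k) F) * z * (a : Matrix (Ix t k) (Ix t k) F)) *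
        ((a⁻¹ : GL (Ix t k) F) : Matrix (Ix t k) (Ix t k) F) = z by
      simp only [← Matrix.mul_assoc, ← Units.val_mul, mul_inv_cancel, Units.val_one, Matrix.one_mul]
      rw [Matrix.mul_assoc, ← Units.val_mul, mul_inv_cancel, Units.val_one, Matrix.mul_one]]

theorem mem_NN {B : Submodule F (Matrix (Fin k) (Fin k) F)} {g : GL (Ix t k) F} :
    g ∈ NN B ↔ ∀ z, z ∈ LL (t := t) B ↔
      (g : Matrix (Ix t k) (Ix t k) F) * z * ((g⁻¹ : GL (Ix t k) F) : Matrix (Ix t k) (Ix t k) F) ∈ LL (t := t) B := Iff.rfl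

/-- Properties of the subspace `B`. -/
structure BD (bar : Equiv.Perm (Fin k)) (B : Submodule F (Matrix (Fin k) (Fin k) F)) : Prop where
  one_mem : (1 : Matrix (Fin k) (Fin k) F) ∈ B
  sq : ∀ x ∈ B, ∃ l : F, x * x = l • 1
  inv : ∀ g : GL (Fin k) F, IsSim bar g → ∀ x ∈ B,
    (g : Matrix (Fin k) (Fin k) F) * x * ((g⁻¹ : GL (Fin k) F) : Matrix (Fin k) (Fin k) F) ∈ B

variable {B : Submodule F (Matrix (Fin k) (Fin k) F)}

theorem tw_forward (hB : BD bar B) (gs : Fin t → GL (Fin k) F) (τ : Equiv.Perm (Fin t)) (hs : ∀ i, IsSim bar (gs i))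
    (z : Matrix (Ix t k) (Ix t k) F) (hz : z ∈ LL (t := t) B) :
    ((tw gs τ : GL (Ix t k) F) : Matrix (Ix t k) (Ix t k) F) * z *
      (((tw gs τ)⁻¹ : GL (Ix t k) F) : Matrix (Ix t k) (Ix t k) F) ∈ LL (t := t) B := by
  induction hz using Submodule.span_induction with
  | mem w hw =>
    obtain ⟨i, x, hx, rfl⟩ := hw
    rw [tw_conj_io]
    exact io_mem_LL _ (hB.inv _ (hs _) x hx)
  | zero =>
    simp
  | add a b _ _ ha hb =>
    rw [mul_add, add_mul]
    exact Submodule.add_mem _ ha hb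
  | smul c a _ ha =>
    rw [Matrix.mul_smul, Matrix.smul_mul]
    exact Submodule.smul_mem _ _ ha

theorem tw_mem_NN (hB : BD bar B) (gs : Fin t → GL (Fin k) F) (τ : Equiv.Perm (Fin t)) (hs : ∀ i, IsSim bar (gs i)) :
    tw gs τ ∈ NN (t := t) B := by
  intro z
  refine ⟨tw_forward hB gs τ hs z, fun h => ?_⟩
  have hinv : (tw gs τ)⁻¹ = tw (fun i => (gs (τ.symm i))⁻¹) τ.symm := by
    ext1
    rw [coe_tw_inv, coe_tw]
  have h1 := tw_forward hB (fun i => (gs (τ.symm i))⁻¹) τ.symm (fun i => (hs _).inv) _ h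
  rw [← hinv, inv_inv] at h1
  convert h1 using 1
  simp only [← Matrix.mul_assoc, ← Units.val_mul, inv_mul_cancel, Units.val_one, Matrix.one_mul]
  rw [Matrix.mul_assoc, ← Units.val_mul, inv_mul_cancel, Units.val_one, Matrix.mul_one]

/-- `H₀ ≤ NN`. -/
theorem std_inf_le_NN (h : TQ bar Q₀ c₀) (hB : BD bar B) (r₀ : Fin k) :
    tensorWreathStandard k t F ⊓ isometryGroup F Q₀ ≤ NN (t := t) B := by
  rintro g ⟨hg, hI⟩
  obtain ⟨gs, τ, rfl⟩ := exists_tw_of_mem hg
  exact tw_mem_NN hB gs τ fun i => h.isSim r₀ gs τ hI i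

/-! ### Scalars from commutators -/

theorem comm_factor (hB : BD bar B) {x x' : Matrix (Fin k) (Fin k) F} (hx : x ∈ B) (hx' : x' ∈ B) :
    ∃ l : F, x * x' + x' * x = l • 1 := by
  obtain ⟨l₁, h1⟩ := hB.sq x hx
  obtain ⟨l₂, h2⟩ := hB.sq x' hx'
  obtain ⟨l₃, h3⟩ := hB.sq (x + x') (B.add_mem hx hx')
  refine ⟨l₃ - l₁ - l₂, ?_⟩
  rw [sub_smul, sub_smul, ← h1, ← h2, ← h3]
  noncomm_ring

theorem comm_scalar (hB : BD bar B) (h2 : (2 : F) = 0) {y z : Matrix (Ix t k) (Ix t k) F} (hy : y ∈ LL (t := t) B)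
    (hz : z ∈ LL (t := t) B) : ∃ l : F, y * z + z * y = l • 1 := by
  have hgen : ∀ (i : Fin t) (x : Matrix (Fin k) (Fin k) F), x ∈ B → ∀ (j : Fin t) (x' : Matrix (Fin k) (Fin k) F), x' ∈ B →
      ∃ l : F, io i x * io j x' + io j x' * io i x = l • 1 := by
    intro i x hx j x' hx'
    by_cases hij : i = j
    · subst hij
      obtain ⟨l, hl⟩ := comm_factor hB hx hx'
      refine ⟨l, ?_⟩
      rw [io_mul_same, io_mul_same, ← io_add, hl, io_smul, io_one]
    · refine ⟨0, ?_⟩
      rw [io_comm hij, ← two_smul F, h2, zero_smul, zero_smul]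
  induction hy using Submodule.span_induction with
  | mem w hw =>
    obtain ⟨i, x, hx, rfl⟩ := hw
    induction hz using Submodule.span_induction with
    | mem w hw =>
      obtain ⟨j, x', hx', rfl⟩ := hw
      exact hgen i x hx j x' hx'
    | zero =>
      exact ⟨0, by simp⟩
    | add a b _ _ ha hb =>
      obtain ⟨l, hl⟩ := ha
      obtain ⟨l', hl'⟩ := hb
      refine ⟨l + l', ?_⟩
      rw [add_smul, ← hl, ← hl']
      noncomm_ring
    | smul c a _ ha =>
      obtain ⟨l, hl⟩ := ha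
      refine ⟨c * l, ?_⟩
      rw [mul_smul, ← hl, Matrix.mul_smul, Matrix.smul_mul, smul_add]
  | zero =>
    exact ⟨0, by simp⟩
  | add a b _ _ ha hb =>
    obtain ⟨l, hl⟩ := ha
    obtain ⟨l', hl'⟩ := hb
    refine ⟨l + l', ?_⟩
    rw [add_smul, ← hl, ← hl']
    noncomm_ring
  | smul c a _ ha =>
    obtain ⟨l, hl⟩ := ha
    refine ⟨c * l, ?_⟩
    rw [mul_smul, ← hl, Matrix.mul_smul, Matrix.smul_mul, smul_add]

/-- The element `1 + y` for `y² = 0`, in characteristic two. -/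
def oneAdd (h2 : (2 : F) = 0) (y : Matrix (Ix t k) (Ix t k) F) (hy : y * y = 0) : GL (Ix t k) F where
  val := 1 + y
  inv := 1 + y
  val_inv := by
    rw [mul_add, add_mul, add_mul, one_mul, mul_one, one_mul, hy, add_zero, add_assoc, ← two_smul F y, h2, zero_smul, add_zero]
  inv_val := by
    rw [mul_add, add_mul, add_mul, one_mul, mul_one, one_mul, hy, add_zero, add_assoc, ← two_smul F y, h2, zero_smul, add_zero]

theorem coe_oneAdd (h2 : (2 : F) = 0) (y : Matrix (Ix t k) (Ix t k) F) (hy : y * y = 0) :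
    ((oneAdd h2 y hy : GL (Ix t k) F) : Matrix (Ix t k) (Ix t k) F) = 1 + y := rfl

theorem coe_oneAdd_inv (h2 : (2 : F) = 0) (y : Matrix (Ix t k) (Ix t k) F) (hy : y * y = 0) :
    (((oneAdd h2 y hy)⁻¹ : GL (Ix t k) F) : Matrix (Ix t k) (Ix t k) F) = 1 + y := rfl

theorem oneAdd_forward (hB : BD bar B) (h2 : (2 : F) = 0) (i₀ : Fin t) {y : Matrix (Ix t k) (Ix t k) F}
    (hyL : y ∈ LL (t := t) B) (hy : y * y = 0) {z : Matrix (Ix t k) (Ix t k) F} (hz : z ∈ LL (t := t) B) :
    (1 + y) * z * (1 + y) ∈ LL (t := t) B := by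
  obtain ⟨l, hl⟩ := comm_scalar hB h2 hyL hz
  have h1 : (1 + y) * z * (1 + y) = z + l • (1 : Matrix (Ix t k) (Ix t k) F) + l • y := by
    have e1 : z * y = l • 1 - y * z := by
      rw [← hl]
      abel
    have e2 : y * z * y = l • y := by
      rw [Matrix.mul_assoc, e1, mul_sub, Matrix.mul_smul, Matrix.mul_one, ← Matrix.mul_assoc, hy, Matrix.zero_mul, sub_zero]
    calc (1 + y) * z * (1 + y) = z + (y * z + z * y) + y * z * y := by noncomm_ring
      _ = _ := by rw [hl, e2]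
  rw [h1]
  refine Submodule.add_mem _ (Submodule.add_mem _ hz (Submodule.smul_mem _ _ ?_)) (Submodule.smul_mem _ _ hyL)
  rw [← io_one i₀]
  exact io_mem_LL _ hB.one_mem

theorem oneAdd_mem_NN (hB : BD bar B) (h2 : (2 : F) = 0) (i₀ : Fin t) {y : Matrix (Ix t k) (Ix t k) F}
    (hyL : y ∈ LL (t := t) B) (hy : y * y = 0) : oneAdd h2 y hy ∈ NN (t := t) B := by
  intro z
  rw [coe_oneAdd_inv, coe_oneAdd]
  refine ⟨oneAdd_forward hB h2 i₀ hyL hy, fun h => ?_⟩
  have h1 := oneAdd_forward hB h2 i₀ hyL hy h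
  have h3 : (1 + y) * (1 + y) = 1 := by
    have := congrArg (fun g : GL (Ix t k) F => (g : Matrix (Ix t k) (Ix t k) F)) (mul_inv_cancel (oneAdd h2 y hy))
    simpa only [Units.val_mul, coe_oneAdd, coe_oneAdd_inv, Units.val_one] using this
  convert h1 using 1
  rw [show (1 + y) * ((1 + y) * z * (1 + y)) * (1 + y) = ((1 + y) * (1 + y)) * z * ((1 + y) * (1 + y)) by
    simp only [Matrix.mul_assoc], h3, one_mul, mul_one]

end Cfsg.Agent.Lib.Ten.Form
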