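/-
Elements outside the tensor-wreath group normalising `L`, and elements of `Ω` not normalising `L`.
-/
import Cfsg.Agent.Lib.Ten.Form
set_option autoImplicit false

namespace Cfsg.Agent.Lib.Ten.Wit

open Cfsg Cfsg.Geo Cfsg.Agent.Lib.Geo.Basic Cfsg.Agent.Lib.Ten.Mm Cfsg.Agent.Lib.Ten.Form Cfsg.Agent.Lib.SLC2.Mono
open scoped MatrixGroups Matrix

variable {F : Type*} [Field F] {t k : ℕ} {bar : Equiv.Perm (Fin k)}
variable {Q₀ : (Ix t k → F) → F} {c₀ : F} {B : Submodule F (Matrix (Fin k) (Fin k) F)}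

/-- `bb` as a bijection. -/
def bbE (hbar : ∀ i, bar (bar i) = i) : Equiv.Perm (Ix t k) where
  toFun := bb bar
  invFun := bb bar
  left_inv a := by
    ext i
    simp [bb, hbar]
  right_inv a := by
    ext i
    simp [bb, hbar]

theorem bbE_apply (hbar : ∀ i, bar (bar i) = i) (a : Ix t k) : bbE hbar a = bb bar a := rfl

theorem bb_bb (hbar : ∀ i, bar (bar i) = i) (a : Ix t k) : bb bar (bb bar a) = a := by
  ext i
  simp [bb, hbar]

theorem beta_selfadj (hbar : ∀ i, bar (bar i) = i) (M : Matrix (Ix t k) (Ix t k) F)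
    (hM : ∀ a b, M a b = M (bb bar b) (bb bar a)) (u v : Ix t k → F) :
    beta bar (M *ᵥ u) v = beta bar u (M *ᵥ v) := by
  have h1 : beta bar (M *ᵥ u) v = ∑ b, u b * ∑ a, M a b * v (bb bar a) := by
    simp only [beta, Finset.mul_sum]
    rw [Finset.sum_comm]
    refine Finset.sum_congr rfl fun a _ => ?_
    change (∑ b, M a b * u b) * v (bb bar a) = _
    rw [Finset.sum_mul]
    refine Finset.sum_congr rfl fun b _ => by ring
  rw [h1]
  refine Finset.sum_congr rfl fun b _ => ?_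
  congr 1
  change _ = ∑ d, M (bb bar b) d * v d
  rw [← Equiv.sum_comp (bbE hbar) (fun d => M (bb bar b) d * v d)]
  refine Finset.sum_congr rfl fun a _ => ?_
  rw [hM a b]
  rfl

theorem io_selfadj (hbar : ∀ i, bar (bar i) = i) (i : Fin t) {x : Matrix (Fin k) (Fin k) F}
    (hx : ∀ p r, x p r = x (bar r) (bar p)) (a b : Ix t k) : io i x a b = io i x (bb bar b) (bb bar a) := by
  rw [io, mm_apply, mm_apply]
  refine Finset.prod_congr rfl fun j _ => ?_
  simp only [Equiv.Perm.coe_one, id, bb]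
  by_cases hj : j = i
  · subst hj
    simp only [Function.update_self]
    exact hx _ _
  · simp only [Function.update_of_ne hj, Matrix.one_apply]
    have : bar (b j) = bar (a j) ↔ a j = b j := by
      rw [bar.injective.eq_iff, eq_comm]
    simp [this]

theorem io_mulVec_ten (i : Fin t) (x : Matrix (Fin k) (Fin k) F) (us : Fin t → Fin k → F) :
    io i x *ᵥ ten us = ten (Function.update us i (x *ᵥ us i)) := by
  rw [io, mm_mulVec_ten]
  congr 1
  ext j l
  by_cases hj : j = i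
  · subst hj
    simp
  · simp [Function.update_of_ne hj]

theorem beta_ten_eq_zero {us vs : Fin t → Fin k → F} (j : Fin t) (h : stdf bar (us j) (vs j) = 0) :
    beta bar (ten us) (ten vs) = 0 := by
  rw [beta_ten]
  exact Finset.prod_eq_zero (Finset.mem_univ j) h

theorem stdf_self_single (hne : ∀ i, bar i ≠ i) (r : Fin k) :
    stdf bar (Pi.single r 1 : Fin k → F) (Pi.single r 1) = 0 := by
  rw [stdf_single_single, if_neg (Ne.symm (hne r))]

section W

variable (h : TQ bar Q₀ c₀) (h2 : (2 : F) = 0) (hbar : ∀ i, bar (bar i) = i) (hne : ∀ i, bar i ≠ i)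

/-- The sum of the same element in two factors. -/
def yy (i₀ i₁ : Fin t) (e : Matrix (Fin k) (Fin k) F) : Matrix (Ix t k) (Ix t k) F := io i₀ e + io i₁ e

include h2 in
theorem yy_sq {i₀ i₁ : Fin t} (hi : i₀ ≠ i₁) {e : Matrix (Fin k) (Fin k) F} (hee : e * e = 0) :
    yy i₀ i₁ e * yy i₀ i₁ e = 0 := by
  rw [yy, mul_add, add_mul, add_mul, io_mul_same, io_mul_same, hee, io_zero, io_zero, zero_add, add_zero,
    io_comm hi.symm, ← two_smul F, h2, zero_smul]

include hbar in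
theorem yy_selfadj {i₀ i₁ : Fin t} {e : Matrix (Fin k) (Fin k) F} (hsa : ∀ p r, e p r = e (bar r) (bar p)) (u v : Ix t k → F) :
    beta bar (yy i₀ i₁ e *ᵥ u) v = beta bar u (yy i₀ i₁ e *ᵥ v) := by
  refine beta_selfadj hbar _ (fun a b => ?_) u v
  rw [yy, Matrix.add_apply, Matrix.add_apply, io_selfadj hbar i₀ hsa a b, io_selfadj hbar i₁ hsa a b]

include h h2 hbar hne in
/-- `1 + y` is an isometry. -/
theorem oneAdd_iso {i₀ i₁ : Fin t} (hi : i₀ ≠ i₁) {e : Matrix (Fin k) (Fin k) F} (hee : e * e = 0)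
    (hsa : ∀ p r, e p r = e (bar r) (bar p))
    (halt : (∃ j, j ≠ i₀ ∧ j ≠ i₁) ∨ ∀ u : Fin k → F, stdf bar (e *ᵥ u) u = 0) :
    oneAdd h2 (yy i₀ i₁ e) (yy_sq h2 hi hee) ∈ isometryGroup F Q₀ := by
  refine h.mem_iso _ (fun x z => ?_) (fun a => ?_)
  · rw [coe_oneAdd, Matrix.add_mulVec, Matrix.add_mulVec, Matrix.one_mulVec, Matrix.one_mulVec, beta_add_left, beta_add_right,
      beta_add_right, yy_selfadj hbar hsa, yy_selfadj hbar hsa, Matrix.mulVec_mulVec, yy_sq h2 hi hee, Matrix.zero_mulVec]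
    have : beta bar x (0 : Ix t k → F) = 0 := by simp [beta]
    rw [this]
    linear_combination (beta bar x (yy i₀ i₁ e *ᵥ z)) * h2
  · set us : Fin t → Fin k → F := fun i => Pi.single (a i) 1 with hus
    have hself : ∀ j, stdf bar (us j) (us j) = 0 := fun j => stdf_self_single hne _
    have ha : (Pi.single a 1 : Ix t k → F) = ten us := (ten_single a).symm
    rw [coe_oneAdd, ha, Matrix.add_mulVec, Matrix.one_mulVec, yy, Matrix.add_mulVec, io_mulVec_ten, io_mulVec_ten,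
      h.add, h.add, h.pure, h.pure, h.pure, beta_add_right]
    rw [beta_ten_eq_zero (us := us) i₁ (by rw [Function.update_of_ne hi.symm]; exact hself _)]
    rw [beta_ten_eq_zero (us := us) i₀ (by rw [Function.update_of_ne hi]; exact hself _)]
    have h3 : beta bar (ten (Function.update us i₀ (e *ᵥ us i₀))) (ten (Function.update us i₁ (e *ᵥ us i₁))) = 0 := by
      rcases halt with ⟨j, hj0, hj1⟩ | halt
      · refine beta_ten_eq_zero j ?_
        rw [Function.update_of_ne hj0, Function.update_of_ne hj1]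
        exact hself _
      · refine beta_ten_eq_zero i₀ ?_
        rw [Function.update_self, Function.update_of_ne hi]
        exact halt _
    rw [h3]
    ring

include h in
/-- A tensor product of isometries is an isometry. -/
theorem tw_iso (gs : Fin t → GL (Fin k) F)
    (hgs : ∀ j, ∀ u v : Fin k → F, stdf bar ((gs j : Matrix (Fin k) (Fin k) F) *ᵥ u) ((gs j : Matrix (Fin k) (Fin k) F) *ᵥ v) = stdf bar u v) :
    tw gs 1 ∈ isometryGroup F Q₀ := by
  refine h.mem_iso _ (fun x z => ?_) (fun a => ?_)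
  · refine beta_eq_of_basis bar _ (fun a b => ?_) x z
    rw [coe_tw, ← ten_single a, ← ten_single b, mm_mulVec_ten, mm_mulVec_ten, beta_ten, beta_ten]
    refine Finset.prod_congr rfl fun j _ => ?_
    exact hgs j _ _
  · rw [coe_tw, ← ten_single a, mm_mulVec_ten]
    exact h.pure _

/-- Pure tensors with two slots singled out. -/
def tt (us : Fin t → Fin k → F) (i₀ i₁ : Fin t) (a b : Fin k → F) : Ix t k → F :=
  ten (Function.update (Function.update us i₀ a) i₁ b)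

theorem tt_i1 (us : Fin t → Fin k → F) (i₀ i₁ : Fin t) (x : Matrix (Fin k) (Fin k) F) (a b : Fin k → F) :
    io i₁ x *ᵥ tt us i₀ i₁ a b = tt us i₀ i₁ a (x *ᵥ b) := by
  rw [tt, io_mulVec_ten, tt]
  simp

theorem tt_i0 (us : Fin t → Fin k → F) {i₀ i₁ : Fin t} (hi : i₀ ≠ i₁) (x : Matrix (Fin k) (Fin k) F) (a b : Fin k → F) :
    io i₀ x *ᵥ tt us i₀ i₁ a b = tt us i₀ i₁ (x *ᵥ a) b := by
  rw [tt, io_mulVec_ten, tt]
  congr 1
  rw [Function.update_of_ne hi, Function.update_self, Function.update_comm hi, Function.update_idem, Function.update_comm hi]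

theorem ten_split (vs : Fin t → Fin k → F) {i₀ i₁ : Fin t} (hi : i₀ ≠ i₁) (ζ : Ix t k) :
    ten vs ζ = vs i₀ (ζ i₀) * vs i₁ (ζ i₁) * ∏ j ∈ (Finset.univ.erase i₀).erase i₁, vs j (ζ j) := by
  rw [ten_apply, ← Finset.mul_prod_erase _ _ (Finset.mem_univ i₀),
    ← Finset.mul_prod_erase (Finset.univ.erase i₀) _ (Finset.mem_erase.mpr ⟨hi.symm, Finset.mem_univ i₁⟩), mul_assoc]

theorem tt_apply (us : Fin t → Fin k → F) {i₀ i₁ : Fin t} (hi : i₀ ≠ i₁) (a b : Fin k → F) (ζ : Ix t k) :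
    tt us i₀ i₁ a b ζ = a (ζ i₀) * b (ζ i₁) * ∏ j ∈ (Finset.univ.erase i₀).erase i₁, us j (ζ j) := by
  rw [tt, ten_split _ hi, Function.update_of_ne hi, Function.update_self, Function.update_self]
  congr 1
  refine Finset.prod_congr rfl fun j hj => ?_
  have h1 : j ≠ i₁ := Finset.ne_of_mem_erase hj
  have h0 : j ≠ i₀ := Finset.ne_of_mem_erase (Finset.mem_of_mem_erase hj)
  rw [Function.update_of_ne h1, Function.update_of_ne h0]

/-- The test polynomial of the witness. -/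
def GG (u a Eu Ea : Fin k → F) (x₀ x₁ : Fin k) : F :=
  u x₀ * u x₁ + Eu x₀ * u x₁ + u x₀ * Eu x₁ + a x₀ * u x₁ + Ea x₀ * u x₁ + a x₀ * Eu x₁ + u x₀ * a x₁ + Eu x₀ * a x₁ + u x₀ * Ea x₁

/-- The non-vanishing minor. -/
abbrev Mn (u a Eu Ea : Fin k → F) (p r : Fin k) : Prop :=
  GG u a Eu Ea r r * GG u a Eu Ea p p ≠ GG u a Eu Ea r p * GG u a Eu Ea p r

include h h2 hbar hne in
/-- The witness in the tensor-wreath complement. -/
theorem exists_witness (hB : BD bar B) {i₀ i₁ : Fin t} (hi : i₀ ≠ i₁) (h₀ : GL (Fin k) F)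
    (hiso : ∀ u v : Fin k → F, stdf bar ((h₀ : Matrix (Fin k) (Fin k) F) *ᵥ u) ((h₀ : Matrix (Fin k) (Fin k) F) *ᵥ v) = stdf bar u v)
    {e : Matrix (Fin k) (Fin k) F} (he : e ∈ B) (hee : e * e = 0) (hsa : ∀ p r, e p r = e (bar r) (bar p))
    (halt : (∃ j, j ≠ i₀ ∧ j ≠ i₁) ∨ ∀ u : Fin k → F, stdf bar (e *ᵥ u) u = 0)
    (p r : Fin k)
    (hminor : Mn (Pi.single p 1) (e *ᵥ Pi.single p 1)
        (((h₀ : Matrix (Fin k) (Fin k) F) * e * ((h₀⁻¹ : GL (Fin k) F) : Matrix (Fin k) (Fin k) F)) *ᵥ Pi.single p 1)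
        (((h₀ : Matrix (Fin k) (Fin k) F) * e * ((h₀⁻¹ : GL (Fin k) F) : Matrix (Fin k) (Fin k) F)) *ᵥ (e *ᵥ Pi.single p 1)) p r) :
    ∃ g₁ ∈ omegaGL Q₀ ⊓ NN (t := t) B, g₁ ∉ tensorWreathStandard k t F := by
  classical
  set E : Matrix (Fin k) (Fin k) F := (h₀ : Matrix (Fin k) (Fin k) F) * e * ((h₀⁻¹ : GL (Fin k) F) : Matrix (Fin k) (Fin k) F) with hE
  set gs : Fin t → GL (Fin k) F := fun j => if j = i₀ ∨ j = i₁ then h₀ else 1 with hgs
  have hgs0 : gs i₀ = h₀ := by simp [hgs]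
  have hgs1 : gs i₁ = h₀ := by simp [hgs]
  have hgsiso : ∀ j, ∀ u v : Fin k → F, stdf bar ((gs j : Matrix (Fin k) (Fin k) F) *ᵥ u) ((gs j : Matrix (Fin k) (Fin k) F) *ᵥ v) = stdf bar u v := by
    intro j u v
    by_cases hj : j = i₀ ∨ j = i₁
    · simp only [hgs, if_pos hj]
      exact hiso u v
    · simp only [hgs, if_neg hj]
      simp
  set hh : GL (Ix t k) F := tw gs 1 with hhh
  have hhI : hh ∈ isometryGroup F Q₀ := tw_iso h gs hgsiso
  have hhN : hh ∈ NN (t := t) B := tw_mem_NN hB gs 1 fun j => ⟨1, one_ne_zero, fun u v => by rw [one_mul]; exact hgsiso j u v⟩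
  set y := yy i₀ i₁ e with hy
  have hy2 : y * y = 0 := yy_sq h2 hi hee
  set w : GL (Ix t k) F := oneAdd h2 y hy2 with hw
  have hwI : w ∈ isometryGroup F Q₀ := oneAdd_iso h h2 hbar hne hi hee hsa halt
  have hyL : y ∈ LL (t := t) B := Submodule.add_mem _ (io_mem_LL _ he) (io_mem_LL _ he)
  have hwN : w ∈ NN (t := t) B := oneAdd_mem_NN hB h2 i₀ hyL hy2
  refine ⟨hh * w * hh⁻¹ * w⁻¹, ⟨?_, ?_⟩, ?_⟩
  · rw [omegaGL_eq_commutator]
    exact Subgroup.commutator_mem_commutator hhI hwI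
  · exact (NN (t := t) B).mul_mem ((NN (t := t) B).mul_mem ((NN (t := t) B).mul_mem hhN hwN) ((NN (t := t) B).inv_mem hhN)) ((NN (t := t) B).inv_mem hwN)
  · intro hmem
    obtain ⟨gs', τ', hgs'⟩ := exists_tw_of_mem hmem
    -- the action on a pure tensor
    obtain ⟨a₀⟩ : Nonempty (Ix t k) := ⟨fun _ => p⟩
    set us : Fin t → Fin k → F := fun j => Pi.single p 1 with hus
    -- the conjugate
    have hconj : ((hh * w * hh⁻¹ : GL (Ix t k) F) : Matrix (Ix t k) (Ix t k) F) = 1 + (io i₀ E + io i₁ E) := by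
      rw [Units.val_mul, Units.val_mul, hw, coe_oneAdd, mul_add, add_mul, mul_one, ← Units.val_mul, mul_inv_cancel, Units.val_one, hy, yy,
        mul_add, add_mul, hhh, tw_conj_io, tw_conj_io]
      simp only [Equiv.Perm.one_symm, Equiv.Perm.coe_one, id, hgs0, hgs1, hE]
    have hval : ((hh * w * hh⁻¹ * w⁻¹ : GL (Ix t k) F) : Matrix (Ix t k) (Ix t k) F) = (1 + (io i₀ E + io i₁ E)) * (1 + y) := by
      rw [Units.val_mul, hconj, hw, coe_oneAdd_inv]
    set u : Fin k → F := Pi.single p 1 with hu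
    set a : Fin k → F := e *ᵥ u with ha
    have hp : ten us = tt us i₀ i₁ u u := by
      rw [tt]
      congr 1
      ext j l
      by_cases h1 : j = i₁
      · subst h1
        simp [hus, hu]
      · rw [Function.update_of_ne h1]
        by_cases h0 : j = i₀
        · subst h0
          simp [hus, hu]
        · rw [Function.update_of_ne h0]
    have hact : ∀ x₀ x₁ : Fin k, ∀ ζ : Ix t k, ζ i₀ = x₀ → ζ i₁ = x₁ →
        (((hh * w * hh⁻¹ * w⁻¹ : GL (Ix t k) F) : Matrix (Ix t k) (Ix t k) F) *ᵥ ten us) ζ =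
          GG u a (E *ᵥ u) (E *ᵥ a) x₀ x₁ * ∏ j ∈ (Finset.univ.erase i₀).erase i₁, us j (ζ j) := by
      intro x₀ x₁ ζ h0 h1
      rw [hval, ← Matrix.mulVec_mulVec, hp, hy, yy]
      simp only [Matrix.add_mulVec, Matrix.one_mulVec, tt_i0 us hi, tt_i1, Matrix.mulVec_add]
      simp only [Pi.add_apply, tt_apply us hi, h0, h1, GG]
      simp only [← ha]
      ring
    -- the image is a pure tensor
    have hpure : ((hh * w * hh⁻¹ * w⁻¹ : GL (Ix t k) F) : Matrix (Ix t k) (Ix t k) F) *ᵥ ten us = ten (fun i => (gs' i : Matrix (Fin k) (Fin k) F) *ᵥ us (τ' i)) := by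
      rw [hgs', coe_tw, mm_mulVec_ten]
    set vs : Fin t → Fin k → F := fun i => (gs' i : Matrix (Fin k) (Fin k) F) *ᵥ us (τ' i) with hvs
    set ζ : Fin k → Fin k → Ix t k := fun x₀ x₁ => Function.update (Function.update (fun _ => p) i₀ x₀) i₁ x₁ with hζ
    have hζ0 : ∀ x₀ x₁, ζ x₀ x₁ i₀ = x₀ := by
      intro x₀ x₁
      simp [hζ, Function.update_of_ne hi]
    have hζ1 : ∀ x₀ x₁, ζ x₀ x₁ i₁ = x₁ := by
      intro x₀ x₁
      simp [hζ]
    have hζj : ∀ x₀ x₁ j, j ∈ (Finset.univ.erase i₀).erase i₁ → ζ x₀ x₁ j = p := by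
      intro x₀ x₁ j hj
      have h1 : j ≠ i₁ := Finset.ne_of_mem_erase hj
      have h0 : j ≠ i₀ := Finset.ne_of_mem_erase (Finset.mem_of_mem_erase hj)
      simp [hζ, Function.update_of_ne h1, Function.update_of_ne h0]
    have hone : ∀ x₀ x₁, ∏ j ∈ (Finset.univ.erase i₀).erase i₁, us j (ζ x₀ x₁ j) = 1 := by
      intro x₀ x₁
      refine Finset.prod_eq_one fun j hj => ?_
      rw [hζj x₀ x₁ j hj]
      simp [hus, hu]
    have hcomp : ∀ x₀ x₁, GG u a (E *ᵥ u) (E *ᵥ a) x₀ x₁ = vs i₀ x₀ * vs i₁ x₁ * ∏ j ∈ (Finset.univ.erase i₀).erase i₁, vs j p := by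
      intro x₀ x₁
      have h1 := hact x₀ x₁ (ζ x₀ x₁) (hζ0 _ _) (hζ1 _ _)
      rw [hone, mul_one, hpure, ten_split _ hi, hζ0, hζ1] at h1
      rw [← h1]
      congr 1
      refine Finset.prod_congr rfl fun j hj => ?_
      rw [hζj x₀ x₁ j hj]
    apply hminor
    rw [hcomp, hcomp, hcomp, hcomp]
    ring

end W

/-! ### Elements of `Ω` not normalising `L` -/

theorem LL_support {z : Matrix (Ix t k) (Ix t k) F} (hz : z ∈ LL (t := t) B) (a b : Ix t k) (i j : Fin t) (hij : i ≠ j)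
    (hi : a i ≠ b i) (hj : a j ≠ b j) : z a b = 0 := by
  induction hz using Submodule.span_induction with
  | mem w hw =>
    obtain ⟨l, x, -, rfl⟩ := hw
    rw [io, mm_apply]
    by_cases hl : i = l
    · subst hl
      refine Finset.prod_eq_zero (Finset.mem_univ j) ?_
      simp [Function.update_of_ne hij.symm, hj]
    · refine Finset.prod_eq_zero (Finset.mem_univ i) ?_
      simp [Function.update_of_ne hl, hi]
  | zero => rfl
  | add x y _ _ hx hy =>
    rw [Matrix.add_apply, hx, hy, add_zero]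
  | smul c x _ hx =>
    rw [Matrix.smul_apply, hx, smul_zero]

theorem pm_mul_apply {ι : Type} [Fintype ι] [DecidableEq ι] (σ : Equiv.Perm ι) (z : Matrix ι ι F) (a b : ι) :
    (((pm σ : GL ι F) : Matrix ι ι F) * z) a b = z (σ a) b := by
  rw [Matrix.mul_apply, Finset.sum_eq_single (σ a)]
  · rw [pm_apply, if_pos rfl, one_mul]
  · intro d _ hd
    rw [pm_apply, if_neg (Ne.symm hd), zero_mul]
  · simp

theorem mul_pm_apply {ι : Type} [Fintype ι] [DecidableEq ι] (σ : Equiv.Perm ι) (z : Matrix ι ι F) (a b : ι) :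
    (z * ((pm σ : GL ι F) : Matrix ι ι F)) a b = z a (σ.symm b) := by
  rw [Matrix.mul_apply, Finset.sum_eq_single (σ.symm b)]
  · rw [pm_apply, if_pos (by simp), mul_one]
  · intro d _ hd
    rw [pm_apply, if_neg, mul_zero]
    rintro rfl
    simp at hd
  · simp

theorem pm_mul {ι : Type} [Fintype ι] [DecidableEq ι] (σ τ : Equiv.Perm ι) :
    (pm σ : GL ι F) * pm τ = pm (σ.trans τ) := by
  ext1
  ext i a
  rw [Units.val_mul, pm_mul_apply, pm_apply, pm_apply, Equiv.trans_apply]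

theorem pm_inv {ι : Type} [Fintype ι] [DecidableEq ι] (σ : Equiv.Perm ι) :
    (pm σ : GL ι F)⁻¹ = pm σ.symm := rfl

/-- A permutation of the indices commuting with `bb` gives an isometry. -/
theorem pm_iso (h : TQ bar Q₀ c₀) (hbar : ∀ i, bar (bar i) = i) (s : Equiv.Perm (Ix t k)) (hs : ∀ a, s (bb bar a) = bb bar (s a)) :
    (pm s : GL (Ix t k) F) ∈ isometryGroup F Q₀ := by
  refine h.mem_iso _ (fun x z => ?_) (fun a => ?_)
  · rw [pm_mulVec, pm_mulVec]
    simp only [beta, Function.comp, hs]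
    exact Equiv.sum_comp s (fun c => x c * z (bb bar c))
  · rw [pm_mulVec]
    have : (Pi.single a 1 : Ix t k → F) ∘ s = Pi.single (s.symm a) 1 := by
      ext c
      simp only [Function.comp, Pi.single_apply]
      by_cases hc : c = s.symm a
      · subst hc
        simp
      · have : s c ≠ a := by
          rintro rfl
          simp at hc
        simp [hc, this]
    rw [this]
    exact h.single _

/-- A double transposition commuting with the bar map. -/
def dsw (a b a' b' : Ix t k) : Equiv.Perm (Ix t k) := Equiv.swap a b * Equiv.swap a' b'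

theorem dsw_bb (hbar : ∀ i, bar (bar i) = i) (a b : Ix t k) (hnd : [a, b, bb bar a, bb bar b].Nodup) (c : Ix t k) :
    dsw a b (bb bar a) (bb bar b) (bb bar c) = bb bar (dsw a b (bb bar a) (bb bar b) c) := by
  have hinj : Function.Injective (bb (t := t) bar) := (bbE hbar).injective
  have hf : ∀ x y z : Ix t k, bb bar (Equiv.swap x y z) = Equiv.swap (bb bar x) (bb bar y) (bb bar z) := fun x y z =>
    (hinj.swap_apply x y z).symm
  have hd : Equiv.Perm.Disjoint (Equiv.swap a b) (Equiv.swap (bb bar a) (bb bar b)) :=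
    Equiv.Perm.disjoint_swap_swap hnd
  have hc := hd.commute
  simp only [dsw, Equiv.Perm.mul_apply]
  rw [hf a b, hf (bb bar a) (bb bar b), bb_bb hbar, bb_bb hbar]
  exact Equiv.congr_fun hc.eq _

/-- The generic `γ`: an element of `Ω` not normalising `L`. -/
theorem exists_gamma (h : TQ bar Q₀ c₀) (hbar : ∀ i, bar (bar i) = i)
    (a₀ b₀ c a' : Ix t k) (i₀ i₁ : Fin t) (hi : i₀ ≠ i₁)
    (hnd : [a₀, b₀, c, bb bar a₀, bb bar b₀, bb bar c, a'].Nodup)
    {x : Matrix (Fin k) (Fin k) F} (hx : x ∈ B) (hsupp : io i₀ x a₀ a' ≠ 0)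
    (h1 : c i₀ ≠ a' i₀) (h2 : c i₁ ≠ a' i₁) :
    ∃ γ ∈ omegaGL Q₀, γ ∉ NN (t := t) B := by
  classical
  have hnd' := hnd
  simp only [List.nodup_cons, List.mem_cons, List.not_mem_nil, or_false, not_or, List.nodup_nil, and_true, not_false_iff] at hnd'
  obtain ⟨⟨ab, ac, aa, ab', ac', aa'⟩, ⟨bc, ba, bb', bc', ba'⟩, ⟨ca, cb, cc, ca'⟩, ⟨a1b, a1c, a1a⟩, ⟨b1c, b1a⟩, c1a⟩ := hnd'
  set s₁ := dsw a₀ b₀ (bb bar a₀) (bb bar b₀) with hs₁
  set s₂ := dsw b₀ c (bb bar b₀) (bb bar c) with hs₂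
  have hnd1 : [a₀, b₀, bb bar a₀, bb bar b₀].Nodup := by
    simp only [List.nodup_cons, List.mem_cons, List.not_mem_nil, or_false, not_or, List.nodup_nil, and_true, not_false_iff]
    exact ⟨⟨ab, aa, ab'⟩, ⟨ba, bb'⟩, a1b⟩
  have hnd2 : [b₀, c, bb bar b₀, bb bar c].Nodup := by
    simp only [List.nodup_cons, List.mem_cons, List.not_mem_nil, or_false, not_or, List.nodup_nil, and_true, not_false_iff]
    exact ⟨⟨bc, bb', bc'⟩, ⟨cb, cc⟩, b1c⟩
  have hp1 : (pm s₁ : GL (Ix t k) F) ∈ isometryGroup F Q₀ := pm_iso h hbar s₁ (dsw_bb hbar a₀ b₀ hnd1)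
  have hp2 : (pm s₂ : GL (Ix t k) F) ∈ isometryGroup F Q₀ := pm_iso h hbar s₂ (dsw_bb hbar b₀ c hnd2)
  refine ⟨pm s₁ * pm s₂ * (pm s₁)⁻¹ * (pm s₂)⁻¹, ?_, ?_⟩
  · rw [omegaGL_eq_commutator]
    exact Subgroup.commutator_mem_commutator hp1 hp2
  · intro hN
    have hz := (hN (io i₀ x)).1 (io_mem_LL _ hx)
    have h0 := LL_support hz c a' i₀ i₁ hi h1 h2
    rw [pm_inv, pm_inv, pm_mul, pm_mul, pm_mul, pm_inv, Matrix.mul_assoc, pm_mul_apply, mul_pm_apply] at h0
    simp only [Equiv.symm_symm, Equiv.trans_apply] at h0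
    have e1 : s₁ c = c := by
      simp only [hs₁, dsw, Equiv.Perm.mul_apply]
      rw [Equiv.swap_apply_of_ne_of_ne ca cb, Equiv.swap_apply_of_ne_of_ne (Ne.symm ac) (Ne.symm bc)]
    have e2 : s₂ c = b₀ := by
      simp only [hs₂, dsw, Equiv.Perm.mul_apply]
      rw [Equiv.swap_apply_of_ne_of_ne cb cc, Equiv.swap_apply_right]
    have e3 : s₁.symm b₀ = a₀ := by
      rw [Equiv.symm_apply_eq]
      simp only [hs₁, dsw, Equiv.Perm.mul_apply]
      rw [Equiv.swap_apply_of_ne_of_ne aa ab', Equiv.swap_apply_left]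
    have e4 : s₂.symm a₀ = a₀ := by
      rw [Equiv.symm_apply_eq]
      simp only [hs₂, dsw, Equiv.Perm.mul_apply]
      rw [Equiv.swap_apply_of_ne_of_ne ab' ac', Equiv.swap_apply_of_ne_of_ne ab ac]
    have e5 : s₁ a' = a' := by
      simp only [hs₁, dsw, Equiv.Perm.mul_apply]
      rw [Equiv.swap_apply_of_ne_of_ne (Ne.symm a1a) (Ne.symm b1a), Equiv.swap_apply_of_ne_of_ne (Ne.symm aa') (Ne.symm ba')]
    have e6 : s₂ a' = a' := by
      simp only [hs₂, dsw, Equiv.Perm.mul_apply]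
      rw [Equiv.swap_apply_of_ne_of_ne (Ne.symm b1a) (Ne.symm c1a), Equiv.swap_apply_of_ne_of_ne (Ne.symm ba') (Ne.symm ca')]
    have e7 : s₁.symm a' = a' := by
      rw [Equiv.symm_apply_eq, e5]
    have e8 : s₂.symm a' = a' := by
      rw [Equiv.symm_apply_eq, e6]
    rw [e1, e2, e3, e4, e5, e6, e7, e8] at h0
    exact hsupp h0

/-- The abstract conclusion. -/
theorem main_generic (h : TQ bar Q₀ c₀) (hB : BD bar B) (r₀ : Fin k)
    (hw : ∃ g₁ ∈ omegaGL Q₀ ⊓ NN (t := t) B, g₁ ∉ tensorWreathStandard k t F)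
    (hg : ∃ γ ∈ omegaGL Q₀, γ ∉ NN (t := t) B) :
    ∃ K₀ : Subgroup (GL (Ix t k) F), tensorWreathStandard k t F ⊓ omegaGL Q₀ < K₀ ∧ K₀ < omegaGL Q₀ := by
  refine ⟨omegaGL Q₀ ⊓ NN (t := t) B, ?_, ?_⟩
  · refine lt_of_le_of_ne (le_inf inf_le_right ?_) ?_
    · refine le_trans (inf_le_inf_left _ (omegaGL_le_isometryGroup Q₀)) (std_inf_le_NN h hB r₀)
    · intro heq
      obtain ⟨g₁, hg₁, hn⟩ := hw
      have : g₁ ∈ tensorWreathStandard k t F ⊓ omegaGL Q₀ := heq ▸ hg₁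
      exact hn this.1
  · refine lt_of_le_of_ne inf_le_left ?_
    intro heq
    obtain ⟨γ, hγ, hn⟩ := hg
    have : γ ∈ omegaGL Q₀ ⊓ NN (t := t) B := by rw [heq]; exact hγ
    exact hn this.2

end Cfsg.Agent.Lib.Ten.Wit
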