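/-
Instantiation of the witnesses for factors of dimension two and four in characteristic two.
-/
import Cfsg.Agent.Lib.Ten.Wit
set_option autoImplicit false

namespace Cfsg.Agent.Lib.Ten.Inst

open Cfsg Cfsg.Geo Cfsg.Agent.Lib.Geo.Basic Cfsg.Agent.Lib.Ten.Mm Cfsg.Agent.Lib.Ten.Form Cfsg.Agent.Lib.Ten.Wit
open scoped MatrixGroups Matrix

variable {F : Type*} [Field F] {t k : ℕ} {bar : Equiv.Perm (Fin k)}

/-! ### Self-adjointness -/

theorem stdf_mulVec_single (x : Matrix (Fin k) (Fin k) F) (p r : Fin k) :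
    stdf bar (x *ᵥ Pi.single r 1) (Pi.single (bar p) 1) = x p r := by
  rw [stdf, Finset.sum_eq_single p]
  · simp
  · intro i _ hi
    have : bar i ≠ bar p := fun h => hi (bar.injective h)
    simp [Pi.single_apply, this]
  · simp

theorem stdf_single_mulVec (x : Matrix (Fin k) (Fin k) F) (r p : Fin k) :
    stdf bar (Pi.single r 1) (x *ᵥ Pi.single p 1) = x (bar r) p := by
  rw [stdf, Finset.sum_eq_single r]
  · simp
  · intro i _ hi
    simp [Pi.single_apply, hi]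
  · simp

theorem selfadj_of_form {x : Matrix (Fin k) (Fin k) F}
    (hx : ∀ u v : Fin k → F, stdf bar (x *ᵥ u) v = stdf bar u (x *ᵥ v)) (p r : Fin k) :
    x p r = x (bar r) (bar p) := by
  rw [← stdf_mulVec_single (bar := bar) x p r, hx, stdf_single_mulVec]

theorem form_of_selfadj {x : Matrix (Fin k) (Fin k) F} (hx : ∀ p r, x p r = x (bar r) (bar p))
    (u v : Fin k → F) : stdf bar (x *ᵥ u) v = stdf bar u (x *ᵥ v) := by
  have h1 : stdf bar (x *ᵥ u) v = ∑ j, u j * ∑ i, x i j * v (bar i) := by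
    simp only [stdf, Finset.mul_sum]
    rw [Finset.sum_comm]
    refine Finset.sum_congr rfl fun i _ => ?_
    change (∑ j, x i j * u j) * v (bar i) = _
    rw [Finset.sum_mul]
    refine Finset.sum_congr rfl fun j _ => by ring
  rw [h1]
  refine Finset.sum_congr rfl fun j _ => ?_
  congr 1
  change _ = ∑ d, x (bar j) d * v d
  rw [← Equiv.sum_comp bar (fun d => x (bar j) d * v d)]
  refine Finset.sum_congr rfl fun i _ => ?_
  rw [hx i j]

theorem conj_selfadj {g : GL (Fin k) F} (hg : IsSim bar g) {x : Matrix (Fin k) (Fin k) F}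
    (hx : ∀ u v : Fin k → F, stdf bar (x *ᵥ u) v = stdf bar u (x *ᵥ v)) (u v : Fin k → F) :
    stdf bar (((g : Matrix (Fin k) (Fin k) F) * x * ((g⁻¹ : GL (Fin k) F) : Matrix (Fin k) (Fin k) F)) *ᵥ u) v =
      stdf bar u (((g : Matrix (Fin k) (Fin k) F) * x * ((g⁻¹ : GL (Fin k) F) : Matrix (Fin k) (Fin k) F)) *ᵥ v) := by
  obtain ⟨c, hc, h⟩ := hg
  set G : Matrix (Fin k) (Fin k) F := (g : Matrix (Fin k) (Fin k) F) with hG
  set gi : Matrix (Fin k) (Fin k) F := ((g⁻¹ : GL (Fin k) F) : Matrix (Fin k) (Fin k) F) with hgi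
  have e1 : ∀ w, (G * x * gi) *ᵥ w = G *ᵥ (x *ᵥ (gi *ᵥ w)) := by
    intro w
    rw [Matrix.mulVec_mulVec, Matrix.mulVec_mulVec, Matrix.mul_assoc]
  have e2 : ∀ w, G *ᵥ (gi *ᵥ w) = w := fun w => mulVec_inv_mulVec g w
  rw [e1, e1]
  conv_lhs => rw [← e2 v]
  conv_rhs => rw [← e2 u]
  rw [h, h, hx]

theorem conj_alt {g : GL (Fin k) F} (hg : IsSim bar g) {x : Matrix (Fin k) (Fin k) F}
    (hx : ∀ u : Fin k → F, stdf bar (x *ᵥ u) u = 0) (u : Fin k → F) :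
    stdf bar (((g : Matrix (Fin k) (Fin k) F) * x * ((g⁻¹ : GL (Fin k) F) : Matrix (Fin k) (Fin k) F)) *ᵥ u) u = 0 := by
  obtain ⟨c, hc, h⟩ := hg
  set G : Matrix (Fin k) (Fin k) F := (g : Matrix (Fin k) (Fin k) F) with hG
  set gi : Matrix (Fin k) (Fin k) F := ((g⁻¹ : GL (Fin k) F) : Matrix (Fin k) (Fin k) F) with hgi
  have e1 : ∀ w, (G * x * gi) *ᵥ w = G *ᵥ (x *ᵥ (gi *ᵥ w)) := by
    intro w
    rw [Matrix.mulVec_mulVec, Matrix.mulVec_mulVec, Matrix.mul_assoc]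
  have e2 : ∀ w, G *ᵥ (gi *ᵥ w) = w := fun w => mulVec_inv_mulVec g w
  rw [e1]
  conv_lhs => rw [← e2 u, e2]
  conv_lhs => arg 3; rw [← e2 u]
  rw [h, hx, mul_zero]

theorem sq_conj {g : GL (Fin k) F} {x : Matrix (Fin k) (Fin k) F} {l : F} (hx : x * x = l • 1) :
    ((g : Matrix (Fin k) (Fin k) F) * x * ((g⁻¹ : GL (Fin k) F) : Matrix (Fin k) (Fin k) F)) *
      ((g : Matrix (Fin k) (Fin k) F) * x * ((g⁻¹ : GL (Fin k) F) : Matrix (Fin k) (Fin k) F)) = l • 1 := by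
  have h1 : ((g⁻¹ : GL (Fin k) F) : Matrix (Fin k) (Fin k) F) * (g : Matrix (Fin k) (Fin k) F) = 1 := by
    rw [← Units.val_mul, inv_mul_cancel, Units.val_one]
  have h2 : (g : Matrix (Fin k) (Fin k) F) * ((g⁻¹ : GL (Fin k) F) : Matrix (Fin k) (Fin k) F) = 1 := by
    rw [← Units.val_mul, mul_inv_cancel, Units.val_one]
  calc _ = (g : Matrix (Fin k) (Fin k) F) * (x * (((g⁻¹ : GL (Fin k) F) : Matrix (Fin k) (Fin k) F) * (g : Matrix (Fin k) (Fin k) F)) * x) *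
        ((g⁻¹ : GL (Fin k) F) : Matrix (Fin k) (Fin k) F) := by simp only [Matrix.mul_assoc]
    _ = _ := by
      rw [h1, Matrix.mul_one, hx, Matrix.mul_smul, Matrix.smul_mul, Matrix.mul_one, h2]

/-! ### Dimension two -/

/-- The bar map in dimension two. -/
def bar2 : Equiv.Perm (Fin 2) := Equiv.swap 0 1

theorem bar2_bar2 : ∀ i, bar2 (bar2 i) = i := by decide

theorem bar2_ne : ∀ i, bar2 i ≠ i := by decide

/-- Self-adjoint matrices in dimension two. -/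
def B2 : Submodule F (Matrix (Fin 2) (Fin 2) F) where
  carrier := {x | ∀ p r, x p r = x (bar2 r) (bar2 p)}
  add_mem' {a b} ha hb p r := by
    simp [ha p r, hb p r]
  zero_mem' p r := rfl
  smul_mem' c x hx p r := by
    simp [hx p r]

theorem B2_BD (h2 : (2 : F) = 0) : BD bar2 (B2 (F := F)) where
  one_mem p r := by
    revert p r
    simp [bar2, Matrix.one_apply]
  sq x hx := by
    have h11 : x 1 1 = x 0 0 := hx 1 1
    refine ⟨x 0 0 * x 0 0 + x 0 1 * x 1 0, ?_⟩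
    ext i j
    fin_cases i <;> fin_cases j <;> simp [Matrix.mul_apply, Fin.sum_univ_two, h11]
    · linear_combination (x 0 0 * x 0 1) * h2
    · linear_combination (x 0 0 * x 1 0) * h2
    · ring
  inv g hg x hx := selfadj_of_form (conj_selfadj hg (form_of_selfadj hx))

/-! ### Dimension four -/

/-- The bar map in dimension four. -/
def bar4 : Equiv.Perm (Fin 4) := Equiv.swap 0 1 * Equiv.swap 2 3

theorem bar4_bar4 : ∀ i, bar4 (bar4 i) = i := by decide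

theorem bar4_ne : ∀ i, bar4 i ≠ i := by decide

theorem bar4_0 : bar4 0 = 1 := by decide
theorem bar4_1 : bar4 1 = 0 := by decide
theorem bar4_2 : bar4 2 = 3 := by decide
theorem bar4_3 : bar4 3 = 2 := by decide

/-- The relevant space of matrices in dimension four. -/
def B4 : Submodule F (Matrix (Fin 4) (Fin 4) F) where
  carrier := {x | (∀ p r, x p r = x (bar4 r) (bar4 p)) ∧ (∀ r, x (bar4 r) r = 0) ∧ x 0 0 = x 2 2}
  add_mem' {a b} ha hb := by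
    refine ⟨fun p r => ?_, fun r => ?_, ?_⟩
    · simp [ha.1 p r, hb.1 p r]
    · simp [ha.2.1 r, hb.2.1 r]
    · simp [ha.2.2, hb.2.2]
  zero_mem' := ⟨fun p r => rfl, fun r => rfl, rfl⟩
  smul_mem' c x hx := by
    refine ⟨fun p r => ?_, fun r => ?_, ?_⟩
    · simp [hx.1 p r]
    · simp [hx.2.1 r]
    · simp [hx.2.2]

theorem B4_entries {x : Matrix (Fin 4) (Fin 4) F} (hs : ∀ p r, x p r = x (bar4 r) (bar4 p)) (ha : ∀ r, x (bar4 r) r = 0) :
    x 0 1 = 0 ∧ x 1 0 = 0 ∧ x 2 3 = 0 ∧ x 3 2 = 0 ∧ x 1 1 = x 0 0 ∧ x 3 3 = x 2 2 ∧ x 2 0 = x 1 3 ∧ x 3 0 = x 1 2 ∧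
      x 2 1 = x 0 3 ∧ x 3 1 = x 0 2 := by
  have h1 := ha 1
  have h0 := ha 0
  have h3 := ha 3
  have h2 := ha 2
  rw [bar4_1] at h1
  rw [bar4_0] at h0
  rw [bar4_3] at h3
  rw [bar4_2] at h2
  refine ⟨h1, h0, h3, h2, ?_, ?_, ?_, ?_, ?_, ?_⟩
  · have := hs 1 1
    rwa [bar4_1] at this
  · have := hs 3 3
    rwa [bar4_3] at this
  · have := hs 2 0
    rwa [bar4_0, bar4_2] at this
  · have := hs 3 0
    rwa [bar4_0, bar4_3] at this
  · have := hs 2 1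
    rwa [bar4_1, bar4_2] at this
  · have := hs 3 1
    rwa [bar4_1, bar4_3] at this

theorem B4_alt (h2 : (2 : F) = 0) {x : Matrix (Fin 4) (Fin 4) F} (hs : ∀ p r, x p r = x (bar4 r) (bar4 p))
    (ha : ∀ r, x (bar4 r) r = 0) (u : Fin 4 → F) : stdf bar4 (x *ᵥ u) u = 0 := by
  obtain ⟨e1, e2, e3, e4, e5, e6, e7, e8, e9, e10⟩ := B4_entries hs ha
  simp only [stdf, Fin.sum_univ_four, Matrix.mulVec, dotProduct, bar4_0, bar4_1, bar4_2, bar4_3, e1, e2, e3, e4, e5, e6, e7, e8, e9, e10]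
  linear_combination (x 0 0 * u 0 * u 1 + x 0 2 * u 1 * u 2 + x 0 3 * u 1 * u 3 + x 1 2 * u 0 * u 2 + x 1 3 * u 0 * u 3 + x 2 2 * u 2 * u 3) * h2

theorem B4_sq (h2 : (2 : F) = 0) {x : Matrix (Fin 4) (Fin 4) F} (hs : ∀ p r, x p r = x (bar4 r) (bar4 p))
    (ha : ∀ r, x (bar4 r) r = 0) (h02 : x 0 0 = x 2 2) : ∃ l : F, x * x = l • 1 := by
  obtain ⟨e1, e2, e3, e4, e5, e6, e7, e8, e9, e10⟩ := B4_entries hs ha
  refine ⟨x 2 2 * x 2 2 + x 0 2 * x 1 3 + x 0 3 * x 1 2, ?_⟩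
  ext i j
  fin_cases i <;> fin_cases j <;>
    simp [Matrix.mul_apply, Fin.sum_univ_four, e1, e2, e3, e4, e5, e6, e7, e8, e9, e10, h02] <;>
    first
      | ring1
      | linear_combination (x 0 2 * x 0 3) * h2
      | linear_combination (x 0 2 * x 1 2) * h2
      | linear_combination (x 0 2 * x 1 3) * h2
      | linear_combination (x 0 2 * x 2 2) * h2
      | linear_combination (x 0 3 * x 1 2) * h2
      | linear_combination (x 0 3 * x 1 3) * h2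
      | linear_combination (x 0 3 * x 2 2) * h2
      | linear_combination (x 1 2 * x 1 3) * h2
      | linear_combination (x 1 2 * x 2 2) * h2
      | linear_combination (x 1 3 * x 2 2) * h2

theorem B4_BD (h2 : (2 : F) = 0) : BD bar4 (B4 (F := F)) where
  one_mem := by
    refine ⟨fun p r => ?_, fun r => ?_, ?_⟩
    · revert p r
      simp [bar4, Matrix.one_apply, Fin.forall_fin_succ]
    · rw [Matrix.one_apply, if_neg (bar4_ne r)]
    · simp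
  sq x hx := B4_sq h2 hx.1 hx.2.1 hx.2.2
  inv g hg x hx := by
    obtain ⟨hs, ha, h02⟩ := hx
    set x' : Matrix (Fin 4) (Fin 4) F := (g : Matrix (Fin 4) (Fin 4) F) * x * ((g⁻¹ : GL (Fin 4) F) : Matrix (Fin 4) (Fin 4) F) with hx'
    have hs' : ∀ p r, x' p r = x' (bar4 r) (bar4 p) := selfadj_of_form (conj_selfadj hg (form_of_selfadj hs))
    have hal := conj_alt hg (B4_alt h2 hs ha)
    have ha' : ∀ r, x' (bar4 r) r = 0 := by
      intro r
      have := hal (Pi.single r 1)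
      rw [← hx'] at this
      have h3 := stdf_mulVec_single (bar := bar4) x' (bar4 r) r
      rw [bar4_bar4] at h3
      rw [← h3, this]
    refine ⟨hs', ha', ?_⟩
    obtain ⟨l, hl⟩ := B4_sq h2 hs ha h02
    have hsq := sq_conj (g := g) hl
    rw [← hx'] at hsq
    obtain ⟨e1, e2, e3, e4, e5, e6, e7, e8, e9, e10⟩ := B4_entries hs' ha'
    have h00 := congrFun (congrFun hsq 0) 0
    have h22 := congrFun (congrFun hsq 2) 2
    simp [Matrix.mul_apply, Fin.sum_univ_four, e1, e2, e3, e4, e5, e6, e7, e8, e9, e10] at h00 h22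
    have hsq2 : (x' 0 0 - x' 2 2) * (x' 0 0 - x' 2 2) = 0 := by
      linear_combination h00 - h22 - (x' 0 0 * x' 2 2 - x' 2 2 * x' 2 2) * h2
    have := mul_self_eq_zero.mp hsq2
    exact sub_eq_zero.mp this

/-! ### The witnesses in dimension two -/

section Two

variable {Q₀ : (Ix t 2 → F) → F} {c₀ : F}

/-- A diagonal matrix. -/
def dg (l : F) (hl : l ≠ 0) : GL (Fin 2) F where
  val := !![l, 0; 0, l⁻¹]
  inv := !![l⁻¹, 0; 0, l]
  val_inv := by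
    simp [Matrix.mul_fin_two, hl, Matrix.one_fin_two]
  inv_val := by
    simp [Matrix.mul_fin_two, hl, Matrix.one_fin_two]

theorem coe_dg (l : F) (hl : l ≠ 0) : ((dg l hl : GL (Fin 2) F) : Matrix (Fin 2) (Fin 2) F) = !![l, 0; 0, l⁻¹] := rfl

theorem coe_dg_inv (l : F) (hl : l ≠ 0) : (((dg l hl)⁻¹ : GL (Fin 2) F) : Matrix (Fin 2) (Fin 2) F) = !![l⁻¹, 0; 0, l] := rfl

/-- The nilpotent element. -/
def e2 : Matrix (Fin 2) (Fin 2) F := !![0, 1; 0, 0]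

theorem bar2_0 : bar2 0 = 1 := by decide
theorem bar2_1 : bar2 1 = 0 := by decide

theorem e2_mem : e2 ∈ B2 (F := F) := by
  intro p r
  fin_cases p <;> fin_cases r <;> simp [e2, bar2_0, bar2_1]

theorem e2_sq : e2 * e2 = (0 : Matrix (Fin 2) (Fin 2) F) := by
  ext i j
  fin_cases i <;> fin_cases j <;> simp [e2, Matrix.mul_apply, Fin.sum_univ_two]

theorem dg_iso (l : F) (hl : l ≠ 0) (u v : Fin 2 → F) :
    stdf bar2 (((dg l hl : GL (Fin 2) F) : Matrix (Fin 2) (Fin 2) F) *ᵥ u) (((dg l hl : GL (Fin 2) F) : Matrix (Fin 2) (Fin 2) F) *ᵥ v) =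
      stdf bar2 u v := by
  rw [coe_dg]
  simp only [stdf, Fin.sum_univ_two, bar2_0, bar2_1, Matrix.mulVec, dotProduct]
  simp
  field_simp

theorem dg_conj (l : F) (hl : l ≠ 0) :
    ((dg l hl : GL (Fin 2) F) : Matrix (Fin 2) (Fin 2) F) * e2 * (((dg l hl)⁻¹ : GL (Fin 2) F) : Matrix (Fin 2) (Fin 2) F) = !![0, l * l; 0, 0] := by
  rw [coe_dg, coe_dg_inv, e2]
  ext i j
  fin_cases i <;> fin_cases j <;> simp [Matrix.mul_apply, Fin.sum_univ_two]

theorem minor2 (h2 : (2 : F) = 0) (l : F) (hl : l ≠ 0) (hl1 : l ≠ 1) :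
    Mn (Pi.single (1 : Fin 2) 1) (e2 *ᵥ Pi.single 1 1)
        ((((dg l hl : GL (Fin 2) F) : Matrix (Fin 2) (Fin 2) F) * e2 * (((dg l hl)⁻¹ : GL (Fin 2) F) : Matrix (Fin 2) (Fin 2) F)) *ᵥ Pi.single 1 1)
        ((((dg l hl : GL (Fin 2) F) : Matrix (Fin 2) (Fin 2) F) * e2 * (((dg l hl)⁻¹ : GL (Fin 2) F) : Matrix (Fin 2) (Fin 2) F)) *ᵥ (e2 *ᵥ Pi.single 1 1)) 1 0 := by
  rw [dg_conj, e2]
  have hu : (Pi.single (1 : Fin 2) 1 : Fin 2 → F) = ![0, 1] := by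
    ext i
    fin_cases i <;> simp
  rw [hu]
  simp [GG, dotProduct, Fin.sum_univ_two]
  intro h
  have h3 : (l * l + 1) * (l * l + 1) = 0 := by
    linear_combination -h + l * l * h2
  have h4 := mul_self_eq_zero.mp h3
  have h5 : (l + 1) * (l + 1) = 0 := by
    linear_combination h4 + l * h2
  have h6 := mul_self_eq_zero.mp h5
  exact hl1 (by linear_combination h6 - h2)

/-- A point of the index set with three prescribed coordinates. -/
def pt3 (i₀ i₁ i₂ : Fin t) (u v w : Fin 2) : Ix t 2 :=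
  fun j => if j = i₀ then u else if j = i₁ then v else if j = i₂ then w else 0

theorem pt3_0 {i₀ i₁ i₂ : Fin t} (u v w : Fin 2) : pt3 i₀ i₁ i₂ u v w i₀ = u := by
  simp [pt3]

theorem pt3_1 {i₀ i₁ i₂ : Fin t} (h01 : i₀ ≠ i₁) (u v w : Fin 2) : pt3 i₀ i₁ i₂ u v w i₁ = v := by
  simp [pt3, h01.symm]

theorem pt3_2 {i₀ i₁ i₂ : Fin t} (h02 : i₀ ≠ i₂) (h12 : i₁ ≠ i₂) (u v w : Fin 2) : pt3 i₀ i₁ i₂ u v w i₂ = w := by
  simp [pt3, h02.symm, h12.symm]

theorem main2 (h : TQ bar2 Q₀ c₀) (h2 : (2 : F) = 0) {l : F} (hl0 : l ≠ 0) (hl1 : l ≠ 1) {i₀ i₁ i₂ : Fin t}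
    (h01 : i₀ ≠ i₁) (h02 : i₀ ≠ i₂) (h12 : i₁ ≠ i₂) :
    ∃ K₀ : Subgroup (GL (Ix t 2) F), tensorWreathStandard 2 t F ⊓ omegaGL Q₀ < K₀ ∧ K₀ < omegaGL Q₀ := by
  refine main_generic h (B2_BD h2) 0 ?_ ?_
  · exact exists_witness h h2 bar2_bar2 bar2_ne (B2_BD h2) h01 (dg l hl0) (dg_iso l hl0) e2_mem e2_sq e2_mem
      (Or.inl ⟨i₂, h02.symm, h12.symm⟩) 1 0 (minor2 h2 l hl0 hl1)
  · refine exists_gamma h bar2_bar2 (pt3 i₀ i₁ i₂ 0 0 0) (pt3 i₀ i₁ i₂ 0 0 1) (pt3 i₀ i₁ i₂ 0 1 0) (pt3 i₀ i₁ i₂ 1 0 0) i₀ i₁ h01 ?_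
      (x := e2) e2_mem ?_ ?_ ?_
    · refine List.Nodup.of_map (fun x : Ix t 2 => (x i₀, x i₁, x i₂)) ?_
      have hq : ∀ x : Ix t 2, bb bar2 x = fun i => bar2 (x i) := fun x => rfl
      simp only [List.map_cons, List.map_nil, hq, pt3_0, pt3_1 h01, pt3_2 h02 h12]
      decide
    · rw [io_apply, pt3_0, pt3_0]
      have : ∏ j ∈ Finset.univ.erase i₀, (1 : Matrix (Fin 2) (Fin 2) F) (pt3 i₀ i₁ i₂ 0 0 0 j) (pt3 i₀ i₁ i₂ 1 0 0 j) = 1 := by
        refine Finset.prod_eq_one fun j hj => ?_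
        have hj0 := Finset.ne_of_mem_erase hj
        have : pt3 i₀ i₁ i₂ 0 0 0 j = pt3 i₀ i₁ i₂ 1 0 0 j := by
          simp [pt3, hj0]
        rw [this, Matrix.one_apply_eq]
      rw [this]
      simp [e2]
    · rw [pt3_0, pt3_0]
      decide
    · rw [pt3_1 h01, pt3_1 h01]
      decide

end Two

/-! ### The witnesses in dimension four -/

section Four

variable {Q₀ : (Ix t 4 → F) → F} {c₀ : F}

/-- A transvection commuting with the form in characteristic two. -/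
def h4 : GL (Fin 4) F where
  val := !![1, 0, 0, 0; 0, 1, 0, 0; 0, 0, 1, 1; 0, 0, 0, 1]
  inv := !![1, 0, 0, 0; 0, 1, 0, 0; 0, 0, 1, -1; 0, 0, 0, 1]
  val_inv := by
    ext i j
    fin_cases i <;> fin_cases j <;> simp [Matrix.mul_apply, Fin.sum_univ_four]
  inv_val := by
    ext i j
    fin_cases i <;> fin_cases j <;> simp [Matrix.mul_apply, Fin.sum_univ_four]

theorem coe_h4 : ((h4 : GL (Fin 4) F) : Matrix (Fin 4) (Fin 4) F) = !![1, 0, 0, 0; 0, 1, 0, 0; 0, 0, 1, 1; 0, 0, 0, 1] := rfl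

theorem coe_h4_inv : (((h4)⁻¹ : GL (Fin 4) F) : Matrix (Fin 4) (Fin 4) F) = !![1, 0, 0, 0; 0, 1, 0, 0; 0, 0, 1, -1; 0, 0, 0, 1] := rfl

/-- The nilpotent element. -/
def e4 : Matrix (Fin 4) (Fin 4) F := !![0, 0, 1, 0; 0, 0, 0, 0; 0, 0, 0, 0; 0, 1, 0, 0]

theorem e4_selfadj : ∀ p r, e4 (F := F) p r = e4 (bar4 r) (bar4 p) := by
  intro p r
  fin_cases p <;> fin_cases r <;> simp [e4, bar4_0, bar4_1, bar4_2, bar4_3]

theorem e4_alt0 : ∀ r, e4 (F := F) (bar4 r) r = 0 := by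
  intro r
  fin_cases r <;> simp [e4, bar4_0, bar4_1, bar4_2, bar4_3]

theorem e4_mem : e4 ∈ B4 (F := F) := ⟨e4_selfadj, e4_alt0, by simp [e4]⟩

theorem e4_sq : e4 * e4 = (0 : Matrix (Fin 4) (Fin 4) F) := by
  ext i j
  fin_cases i <;> fin_cases j <;> simp [e4, Matrix.mul_apply, Fin.sum_univ_four]

theorem h4_iso (h2 : (2 : F) = 0) (u v : Fin 4 → F) :
    stdf bar4 (((h4 : GL (Fin 4) F) : Matrix (Fin 4) (Fin 4) F) *ᵥ u) (((h4 : GL (Fin 4) F) : Matrix (Fin 4) (Fin 4) F) *ᵥ v) =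
      stdf bar4 u v := by
  rw [coe_h4]
  simp only [stdf, Fin.sum_univ_four, bar4_0, bar4_1, bar4_2, bar4_3, Matrix.mulVec, dotProduct]
  simp
  linear_combination (u 3 * v 3) * h2

theorem h4_conj :
    ((h4 : GL (Fin 4) F) : Matrix (Fin 4) (Fin 4) F) * e4 * (((h4)⁻¹ : GL (Fin 4) F) : Matrix (Fin 4) (Fin 4) F) =
      !![0, 0, 1, -1; 0, 0, 0, 0; 0, 1, 0, 0; 0, 1, 0, 0] := by
  rw [coe_h4, coe_h4_inv, e4]
  ext i j
  fin_cases i <;> fin_cases j <;> simp [Matrix.mul_apply, Fin.sum_univ_four]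

theorem minor4 :
    Mn (Pi.single (3 : Fin 4) 1) (e4 *ᵥ Pi.single 3 1)
        ((((h4 : GL (Fin 4) F) : Matrix (Fin 4) (Fin 4) F) * e4 * (((h4)⁻¹ : GL (Fin 4) F) : Matrix (Fin 4) (Fin 4) F)) *ᵥ Pi.single 3 1)
        ((((h4 : GL (Fin 4) F) : Matrix (Fin 4) (Fin 4) F) * e4 * (((h4)⁻¹ : GL (Fin 4) F) : Matrix (Fin 4) (Fin 4) F)) *ᵥ (e4 *ᵥ Pi.single 3 1)) 3 0 := by
  rw [h4_conj, e4]
  have hu : (Pi.single (3 : Fin 4) 1 : Fin 4 → F) = ![0, 0, 0, 1] := by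
    ext i
    fin_cases i <;> simp
  rw [hu]
  simp [GG, dotProduct, Fin.sum_univ_four]

/-- A point of the index set with two prescribed coordinates. -/
def pt2 (i₀ i₁ : Fin t) (u v : Fin 4) : Ix t 4 :=
  fun j => if j = i₀ then u else if j = i₁ then v else 0

theorem pt2_0 {i₀ i₁ : Fin t} (u v : Fin 4) : pt2 i₀ i₁ u v i₀ = u := by
  simp [pt2]

theorem pt2_1 {i₀ i₁ : Fin t} (h01 : i₀ ≠ i₁) (u v : Fin 4) : pt2 i₀ i₁ u v i₁ = v := by
  simp [pt2, h01.symm]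

theorem main4 (h : TQ bar4 Q₀ c₀) (h2 : (2 : F) = 0) {i₀ i₁ : Fin t} (h01 : i₀ ≠ i₁) :
    ∃ K₀ : Subgroup (GL (Ix t 4) F), tensorWreathStandard 4 t F ⊓ omegaGL Q₀ < K₀ ∧ K₀ < omegaGL Q₀ := by
  refine main_generic h (B4_BD h2) 0 ?_ ?_
  · exact exists_witness h h2 bar4_bar4 bar4_ne (B4_BD h2) h01 h4 (h4_iso h2) e4_mem e4_sq e4_selfadj
      (Or.inr (B4_alt h2 e4_selfadj e4_alt0)) 3 0 minor4
  · refine exists_gamma h bar4_bar4 (pt2 i₀ i₁ 0 0) (pt2 i₀ i₁ 2 2) (pt2 i₀ i₁ 0 2) (pt2 i₀ i₁ 2 0) i₀ i₁ h01 ?_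
      (x := e4) e4_mem ?_ ?_ ?_
    · refine List.Nodup.of_map (fun x : Ix t 4 => (x i₀, x i₁)) ?_
      have hq : ∀ x : Ix t 4, bb bar4 x = fun i => bar4 (x i) := fun x => rfl
      simp only [List.map_cons, List.map_nil, hq, pt2_0, pt2_1 h01]
      decide
    · rw [io_apply, pt2_0, pt2_0]
      have : ∏ j ∈ Finset.univ.erase i₀, (1 : Matrix (Fin 4) (Fin 4) F) (pt2 i₀ i₁ 0 0 j) (pt2 i₀ i₁ 2 0 j) = 1 := by
        refine Finset.prod_eq_one fun j hj => ?_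
        have hj0 := Finset.ne_of_mem_erase hj
        have : pt2 i₀ i₁ 0 0 j = pt2 i₀ i₁ 2 0 j := by
          simp [pt2, hj0]
        rw [this, Matrix.one_apply_eq]
      rw [this]
      simp [e4]
    · rw [pt2_0, pt2_0]
      decide
    · rw [pt2_1 h01, pt2_1 h01]
      decide

end Four

end Cfsg.Agent.Lib.Ten.Inst
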