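/-
Reduction of the tensor-power structure to the standard one.
-/
import Cfsg.Agent.Lib.Ten.Inst
import Cfsg.Agent.Lib.NotMax.Tensor
import Cfsg.Agent.Lib.SLC2.MonoA
set_option autoImplicit false

namespace Cfsg.Agent.Lib.Ten.Trans

open Cfsg Cfsg.Geo Cfsg.Agent.Lib.Geo.Basic Cfsg.Agent.Lib.Ten.Mm Cfsg.Agent.Lib.Ten.Form Cfsg.Agent.Lib.Ten.Wit
  Cfsg.Agent.Lib.Ten.Inst
open scoped MatrixGroups Matrix

variable {F : Type*} [Field F] {t k : ℕ}

/-- The standard Gram matrix. -/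
def JJ (bar : Equiv.Perm (Fin k)) : Matrix (Fin k) (Fin k) F := fun p r => if r = bar p then 1 else 0

theorem JJ_sq {bar : Equiv.Perm (Fin k)} (hbar : ∀ i, bar (bar i) = i) : JJ (F := F) bar * JJ bar = 1 := by
  ext i j
  rw [Matrix.mul_apply, Finset.sum_eq_single (bar i)]
  · simp only [JJ, if_true, one_mul, Matrix.one_apply, hbar]
    by_cases h : i = j
    · simp [h]
    · simp [h, Ne.symm h]
  · intro b _ hb
    simp [JJ, hb]
  · simp

theorem mm_J_mulVec (bar : Equiv.Perm (Fin k)) (y : Ix t k → F) (a : Ix t k) :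
    (mm (fun _ => JJ (F := F) bar) 1 *ᵥ y) a = y (bb bar a) := by
  change ∑ b, mm (fun _ => JJ (F := F) bar) 1 a b * y b = _
  rw [Finset.sum_eq_single (bb bar a)]
  · rw [mm_apply]
    simp [JJ, bb]
  · intro b _ hb
    rw [mm_apply]
    obtain ⟨i, hi⟩ := Function.ne_iff.mp hb
    rw [Finset.prod_eq_zero (Finset.mem_univ i), zero_mul]
    simp only [JJ, bb] at hi ⊢
    exact if_neg hi
  · simp

theorem mm_transpose (A : Matrix (Fin k) (Fin k) F) :
    (mm (t := t) (fun _ => A) 1)ᵀ = mm (fun _ => Aᵀ) 1 := by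
  ext a b
  simp [mm_apply]

/-- The transformed form. -/
theorem gram_beta {bar : Equiv.Perm (Fin k)} (A : GL (Fin k) F) (G : Matrix (Fin k) (Fin k) F)
    (hA : (A : Matrix (Fin k) (Fin k) F)ᵀ * G * (A : Matrix (Fin k) (Fin k) F) = JJ bar) (x y : Ix t k → F) :
    ∑ a, ∑ b, (((tw (fun _ => A) 1 : GL (Ix t k) F) : Matrix (Ix t k) (Ix t k) F) *ᵥ x) a * (∏ i, G (a i) (b i)) *
        (((tw (fun _ => A) 1 : GL (Ix t k) F) : Matrix (Ix t k) (Ix t k) F) *ᵥ y) b = beta bar x y := by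
  rw [coe_tw]
  set Ah : Matrix (Ix t k) (Ix t k) F := mm (fun _ => (A : Matrix (Fin k) (Fin k) F)) 1 with hAh
  have h1 : ∀ u v : Ix t k → F, ∑ a, ∑ b, u a * (∏ i, G (a i) (b i)) * v b = u ⬝ᵥ (mm (fun _ => G) 1 *ᵥ v) := by
    intro u v
    simp only [dotProduct, Matrix.mulVec, Finset.mul_sum, mm_apply]
    refine Finset.sum_congr rfl fun a _ => Finset.sum_congr rfl fun b _ => ?_
    simp [mul_assoc]
  have h2 : Ahᵀ * mm (fun _ => G) 1 * Ah = mm (fun _ => JJ bar) 1 := by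
    rw [hAh, mm_transpose, mm_mul, mm_mul]
    congr 1
    ext i : 1
    exact hA
  rw [h1]
  calc (Ah *ᵥ x) ⬝ᵥ (mm (fun _ => G) 1 *ᵥ (Ah *ᵥ y))
      = x ⬝ᵥ (Ahᵀ *ᵥ (mm (fun _ => G) 1 *ᵥ (Ah *ᵥ y))) := by
        rw [Matrix.dotProduct_mulVec x Ahᵀ, Matrix.vecMul_transpose]
    _ = x ⬝ᵥ (mm (fun _ => JJ bar) 1 *ᵥ y) := by
        rw [Matrix.mulVec_mulVec, Matrix.mulVec_mulVec, h2]
    _ = beta bar x y := by
        simp only [dotProduct, mm_J_mulVec, beta]

/-! ### Existence of a symplectic basis -/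

section Basis

variable {f : (Fin k → F) → (Fin k → F) → F}

theorem exists_A_of_basis {bar : Equiv.Perm (Fin k)} (hbar : ∀ i, bar (bar i) = i) (hf : IsBilinearForm f)
    (b : Fin k → Fin k → F) (hb : ∀ i j, f (b i) (b j) = if j = bar i then 1 else 0) :
    ∃ A : GL (Fin k) F, (A : Matrix (Fin k) (Fin k) F)ᵀ * gramMatrix f * (A : Matrix (Fin k) (Fin k) F) = JJ bar := by
  set M : Matrix (Fin k) (Fin k) F := fun i j => b j i with hM0
  have hM : Mᵀ * gramMatrix f * M = JJ bar := by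
    ext i j
    have h1 := Cfsg.Agent.Lib.NotMax.Tensor.formOfGram_bilinear hf (b i) (b j)
    rw [hb] at h1
    change _ = if j = bar i then 1 else 0
    rw [← h1]
    have hMe : ∀ i j, M i j = b j i := fun _ _ => rfl
    simp only [Matrix.mul_apply, formOfGram, Finset.sum_mul, Matrix.transpose_apply, hMe, id]
    rw [Finset.sum_comm]
  have hu : IsUnit M := (Matrix.isUnit_iff_isUnit_det M).mpr (Matrix.isUnit_det_of_left_inverse (B := JJ bar * (Mᵀ * gramMatrix f)) (by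
    rw [Matrix.mul_assoc, Matrix.mul_assoc, ← Matrix.mul_assoc Mᵀ, hM, JJ_sq hbar]))
  obtain ⟨A, hA⟩ := hu
  exact ⟨A, by rw [hA]; exact hM⟩

theorem exists_unit_right (hf : IsBilinearForm f) (hnd : IsNondegenerateForm f) {x : Fin k → F} (hx : x ≠ 0) :
    ∃ y, f x y = 1 := by
  obtain ⟨y, hy⟩ := (hnd x hx).2
  exact ⟨(f x y)⁻¹ • y, by rw [hf.smul_right, inv_mul_cancel₀ hy]⟩

end Basis

theorem exists_A2 {f : (Fin 2 → F) → (Fin 2 → F) → F} (hf : IsSymplecticForm f) (h2 : (2 : F) = 0) :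
    ∃ A : GL (Fin 2) F, (A : Matrix (Fin 2) (Fin 2) F)ᵀ * gramMatrix f * (A : Matrix (Fin 2) (Fin 2) F) = JJ bar2 := by
  have hu : (Pi.single 0 1 : Fin 2 → F) ≠ 0 := by
    intro h
    have := congrFun h 0
    simp at this
  obtain ⟨v, hv⟩ := exists_unit_right hf.bilinear hf.nondegenerate hu
  refine exists_A_of_basis bar2_bar2 hf.bilinear ![Pi.single 0 1, v] fun i j => ?_
  fin_cases i <;> fin_cases j <;> simp [bar2_0, bar2_1, hf.alternating, hv]
  rw [hf.skew, hv]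
  linear_combination -h2

theorem exists_A4 {f : (Fin 4 → F) → (Fin 4 → F) → F} (hf : IsSymplecticForm f) (h2 : (2 : F) = 0) :
    ∃ A : GL (Fin 4) F, (A : Matrix (Fin 4) (Fin 4) F)ᵀ * gramMatrix f * (A : Matrix (Fin 4) (Fin 4) F) = JJ bar4 := by
  have hb := hf.bilinear
  have hu : (Pi.single 0 1 : Fin 4 → F) ≠ 0 := by
    intro h
    have := congrFun h 0
    simp at this
  set u₀ : Fin 4 → F := Pi.single 0 1 with hu₀
  obtain ⟨v₀, hv₀⟩ := exists_unit_right hb hf.nondegenerate hu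
  -- the orthogonal vector
  obtain ⟨c, hc0, hc⟩ := Cfsg.Agent.Lib.SLC2.MonoA.exists_kernel (F := F)
    ![![f u₀ (Pi.single 1 1), f u₀ (Pi.single 2 1), f u₀ (Pi.single 3 1)],
      ![f v₀ (Pi.single 1 1), f v₀ (Pi.single 2 1), f v₀ (Pi.single 3 1)]]
  have hc1 := hc 0
  have hc2 := hc 1
  simp only [Fin.sum_univ_three, Matrix.cons_val] at hc1 hc2
  set y : Fin 4 → F := c 0 • Pi.single 1 1 + c 1 • Pi.single 2 1 + c 2 • Pi.single 3 1 with hy
  have hy0 : y ≠ 0 := by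
    intro h
    apply hc0
    have e1 := congrFun h 1
    have e2 := congrFun h 2
    have e3 := congrFun h 3
    simp [hy] at e1 e2 e3
    ext i
    fin_cases i
    · exact e1
    · exact e2
    · exact e3
  have hfy : ∀ w, f w y = c 0 * f w (Pi.single 1 1) + c 1 * f w (Pi.single 2 1) + c 2 * f w (Pi.single 3 1) := by
    intro w
    rw [hy, hb.add_right, hb.add_right, hb.smul_right, hb.smul_right, hb.smul_right]
  have hu₀y : f u₀ y = 0 := by
    rw [hfy]
    exact hc1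
  have hv₀y : f v₀ y = 0 := by
    rw [hfy]
    exact hc2
  obtain ⟨x, hx⟩ := exists_unit_right hb hf.nondegenerate hy0
  set v₁ : Fin 4 → F := x + f v₀ x • u₀ + (- f u₀ x) • v₀ with hv₁
  have hfv₁ : ∀ w, f w v₁ = f w x + f v₀ x * f w u₀ + (- f u₀ x) * f w v₀ := by
    intro w
    rw [hv₁, hb.add_right, hb.add_right, hb.smul_right, hb.smul_right]
  have huu := hf.alternating u₀
  have hvv := hf.alternating v₀
  have hyy := hf.alternating y
  have hv₀u₀ : f v₀ u₀ = 1 := by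
    rw [hf.skew, hv₀]
    linear_combination -h2
  have hyu₀ : f y u₀ = 0 := by
    rw [hf.skew, hu₀y, neg_zero]
  have hyv₀ : f y v₀ = 0 := by
    rw [hf.skew, hv₀y, neg_zero]
  have hu₀v₁ : f u₀ v₁ = 0 := by
    rw [hfv₁, huu, hv₀]
    ring
  have hv₀v₁ : f v₀ v₁ = 0 := by
    rw [hfv₁, hv₀u₀, hvv]
    linear_combination (f v₀ x) * h2
  have hyv₁ : f y v₁ = 1 := by
    rw [hfv₁, hx, hyu₀, hyv₀]
    ring
  have hv₁u₀ : f v₁ u₀ = 0 := by
    rw [hf.skew, hu₀v₁, neg_zero]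
  have hv₁v₀ : f v₁ v₀ = 0 := by
    rw [hf.skew, hv₀v₁, neg_zero]
  have hv₁y : f v₁ y = 1 := by
    rw [hf.skew, hyv₁]
    linear_combination -h2
  have hv₁v₁ := hf.alternating v₁
  refine exists_A_of_basis bar4_bar4 hb ![u₀, v₀, y, v₁] fun i j => ?_
  fin_cases i <;> fin_cases j <;>
    simp [bar4_0, bar4_1, bar4_2, bar4_3, huu, hv₀, hu₀y, hu₀v₁, hv₀u₀, hvv, hv₀y, hv₀v₁, hyu₀, hyv₀, hyy, hyv₁, hv₁u₀, hv₁v₀, hv₁y, hv₁v₁]

/-! ### Transport -/

section Transport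

variable {n : ℕ} {Q : (Fin n → F) → F} (e : Fin n ≃ Ix t k) (P : GL (Fin n) F) (A : GL (Fin k) F)

/-- The coordinates. -/
def theta (v : Ix t k → F) : Fin n → F :=
  (P : Matrix (Fin n) (Fin n) F) *ᵥ ((((tw (fun _ => A) 1 : GL (Ix t k) F) : Matrix (Ix t k) (Ix t k) F) *ᵥ v) ∘ e)

/-- The transport of matrices. -/
def Psi : GL (Ix t k) F ≃* GL (Fin n) F :=
  (MulAut.conj (tw (fun _ => A) 1 : GL (Ix t k) F)).trans ((glReindex e.symm).trans (MulAut.conj P))

theorem reindex_mulVec (M : Matrix (Ix t k) (Ix t k) F) (z : Ix t k → F) :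
    Matrix.reindex e.symm e.symm M *ᵥ (z ∘ e) = (M *ᵥ z) ∘ e := by
  funext i
  simp only [Matrix.mulVec, dotProduct, Matrix.reindex_apply, Matrix.submatrix_apply, Function.comp, Equiv.symm_symm]
  exact Equiv.sum_comp e (fun c => M (e i) c * z c)

theorem Psi_mulVec (g : GL (Ix t k) F) (v : Ix t k → F) :
    ((Psi e P A g : GL (Fin n) F) : Matrix (Fin n) (Fin n) F) *ᵥ theta e P A v = theta e P A ((g : Matrix (Ix t k) (Ix t k) F) *ᵥ v) := by
  set Ah : GL (Ix t k) F := tw (fun _ => A) 1 with hAh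
  have h1 : ((Psi e P A g : GL (Fin n) F) : Matrix (Fin n) (Fin n) F) = (P : Matrix (Fin n) (Fin n) F) *
      (Matrix.reindex e.symm e.symm ((Ah : Matrix (Ix t k) (Ix t k) F) * (g : Matrix (Ix t k) (Ix t k) F) * ((Ah⁻¹ : GL (Ix t k) F) : Matrix (Ix t k) (Ix t k) F))) *
      ((P⁻¹ : GL (Fin n) F) : Matrix (Fin n) (Fin n) F) := rfl
  rw [h1, theta, theta, ← Matrix.mulVec_mulVec, ← Matrix.mulVec_mulVec, inv_mulVec_mulVec, reindex_mulVec]
  congr 2
  rw [← Matrix.mulVec_mulVec, ← Matrix.mulVec_mulVec, inv_mulVec_mulVec]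

theorem theta_surj (w : Fin n → F) : ∃ v, theta e P A v = w := by
  refine ⟨((((tw (fun _ => A) 1 : GL (Ix t k) F))⁻¹ : GL (Ix t k) F) : Matrix (Ix t k) (Ix t k) F) *ᵥ
    ((((P⁻¹ : GL (Fin n) F) : Matrix (Fin n) (Fin n) F) *ᵥ w) ∘ e.symm), ?_⟩
  rw [theta, mulVec_inv_mulVec]
  have : (((((P⁻¹ : GL (Fin n) F) : Matrix (Fin n) (Fin n) F) *ᵥ w) ∘ e.symm) ∘ e) = ((P⁻¹ : GL (Fin n) F) : Matrix (Fin n) (Fin n) F) *ᵥ w := by
    funext i
    simp
  rw [this, mulVec_inv_mulVec]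

theorem theta_add (x y : Ix t k → F) : theta e P A (x + y) = theta e P A x + theta e P A y := by
  have h : (((tw (fun _ => A) 1 : GL (Ix t k) F) : Matrix (Ix t k) (Ix t k) F) *ᵥ (x + y)) ∘ e =
      (((tw (fun _ => A) 1 : GL (Ix t k) F) : Matrix (Ix t k) (Ix t k) F) *ᵥ x) ∘ e +
        (((tw (fun _ => A) 1 : GL (Ix t k) F) : Matrix (Ix t k) (Ix t k) F) *ᵥ y) ∘ e := by
    rw [Matrix.mulVec_add]
    rfl
  rw [theta, h, Matrix.mulVec_add]
  rfl

theorem theta_smul (c : F) (x : Ix t k → F) : theta e P A (c • x) = c • theta e P A x := by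
  have h : (((tw (fun _ => A) 1 : GL (Ix t k) F) : Matrix (Ix t k) (Ix t k) F) *ᵥ (c • x)) ∘ e =
      c • ((((tw (fun _ => A) 1 : GL (Ix t k) F) : Matrix (Ix t k) (Ix t k) F) *ᵥ x) ∘ e) := by
    rw [Matrix.mulVec_smul]
    rfl
  rw [theta, h, Matrix.mulVec_smul]
  rfl

theorem theta_ten (us : Fin t → Fin k → F) :
    theta e P A (ten us) = (P : Matrix (Fin n) (Fin n) F) *ᵥ ((fun a : Fin t → Fin k => ∏ i, ((A : Matrix (Fin k) (Fin k) F) *ᵥ us i) (a i)) ∘ e) := by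
  rw [theta, coe_tw, mm_mulVec_ten]
  rfl

theorem map_iso : (isometryGroup F (Q ∘ theta e P A)).map (Psi e P A).toMonoidHom = isometryGroup F Q := by
  ext g
  rw [mem_isometryGroup_iff]
  constructor
  · rintro ⟨g₀, hg₀, rfl⟩
    rw [SetLike.mem_coe, mem_isometryGroup_iff] at hg₀
    intro w
    obtain ⟨v, rfl⟩ := theta_surj e P A w
    have := hg₀ v
    simp only [Function.comp] at this
    change Q (((Psi e P A g₀ : GL (Fin n) F) : Matrix (Fin n) (Fin n) F) *ᵥ theta e P A v) = _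
    rw [Psi_mulVec, this]
  · intro hg
    refine ⟨(Psi e P A).symm g, ?_, by simp⟩
    rw [SetLike.mem_coe, mem_isometryGroup_iff]
    intro v
    simp only [Function.comp]
    rw [← Psi_mulVec, MulEquiv.apply_symm_apply, hg]

theorem map_omega : (omegaGL (Q ∘ theta e P A)).map (Psi e P A).toMonoidHom = omegaGL Q := by
  rw [omegaGL_eq_commutator, omegaGL_eq_commutator, Subgroup.map_commutator, map_iso]

theorem map_std : (tensorWreathStandard k t F).map (Psi e P A).toMonoidHom = tensorWreathSubgroup k t e P := by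
  have hA : (tw (fun _ => A) 1 : GL (Ix t k) F) ∈ tensorWreathStandard k t F := tw_one_mem _
  have h1 : (tensorWreathStandard k t F).map (MulAut.conj (tw (fun _ => A) 1 : GL (Ix t k) F)).toMonoidHom = tensorWreathStandard k t F := by
    ext g
    constructor
    · rintro ⟨g₀, hg₀, rfl⟩
      exact (tensorWreathStandard k t F).mul_mem ((tensorWreathStandard k t F).mul_mem hA hg₀) ((tensorWreathStandard k t F).inv_mem hA)
    · intro hg
      refine ⟨(tw (fun _ => A) 1 : GL (Ix t k) F)⁻¹ * g * (tw (fun _ => A) 1 : GL (Ix t k) F),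
        (tensorWreathStandard k t F).mul_mem ((tensorWreathStandard k t F).mul_mem ((tensorWreathStandard k t F).inv_mem hA) hg) hA, ?_⟩
      simp [MulAut.conj_apply, mul_assoc]
  conv_rhs => rw [tensorWreathSubgroup, ← h1, Subgroup.map_map, Subgroup.map_map]
  rfl

/-- The conclusion for `Q` from the conclusion on the standard space. -/
theorem final (h : ∃ K₀ : Subgroup (GL (Ix t k) F), tensorWreathStandard k t F ⊓ omegaGL (Q ∘ theta e P A) < K₀ ∧ K₀ < omegaGL (Q ∘ theta e P A)) :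
    ∃ K : Subgroup (GL (Fin n) F), tensorWreathSubgroup k t e P ⊓ omegaGL Q < K ∧ K < omegaGL Q := by
  obtain ⟨K₀, h1, h2⟩ := h
  have hinj : Function.Injective (Psi e P A).toMonoidHom := (Psi e P A).injective
  refine ⟨K₀.map (Psi e P A).toMonoidHom, ?_, ?_⟩
  · rw [← map_std e P A, ← map_omega e P A, ← Subgroup.map_inf _ _ _ hinj]
    exact (Subgroup.map_lt_map_iff_of_injective hinj).mpr h1
  · rw [← map_omega e P A]
    exact (Subgroup.map_lt_map_iff_of_injective hinj).mpr h2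

/-- The transformed quadratic form. -/
theorem tq {bar : Equiv.Perm (Fin k)} {f₁ : (Fin k → F) → (Fin k → F) → F} (hQ : IsNondegenerateQuadraticForm Q)
    (hA : (A : Matrix (Fin k) (Fin k) F)ᵀ * gramMatrix f₁ * (A : Matrix (Fin k) (Fin k) F) = JJ bar)
    (hT : IsTensorPowerFormStructure id (QuadraticMap.polar Q) f₁ e P)
    (hpure : ∀ xs : Fin t → (Fin k → F), Q (Matrix.mulVec (P : Matrix (Fin n) (Fin n) F) ((fun a : Fin t → Fin k => ∏ i, xs i (a i)) ∘ e)) = 0) :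
    ∃ c₀, TQ bar (Q ∘ theta e P A) c₀ := by
  obtain ⟨c, hc, hT⟩ := hT
  refine ⟨c, ?_, ?_, hc, ?_⟩
  · intro a v
    simp only [Function.comp]
    rw [theta_smul, hQ.smul]
  · intro x y
    simp only [Function.comp]
    rw [theta_add]
    have h1 := hT (((tw (fun _ => A) 1 : GL (Ix t k) F) : Matrix (Ix t k) (Ix t k) F) *ᵥ x) (((tw (fun _ => A) 1 : GL (Ix t k) F) : Matrix (Ix t k) (Ix t k) F) *ᵥ y)
    simp only [id] at h1
    rw [gram_beta A _ hA] at h1
    exact h1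
  · intro us
    simp only [Function.comp]
    rw [theta_ten]
    exact hpure _

end Transport

end Cfsg.Agent.Lib.Ten.Trans
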